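import Cfsg.Agent.Lib.Asch.Mono

/-!
Small cases of the geometric classes of the special linear group that are contained in members of
other classes, and the refined form of Aschbacher's theorem for maximal subgroups.
-/

namespace H10.Asch

open Matrix Cfsg.Geo Module
open scoped MatrixGroups Kronecker commutatorElement

variable {ι : Type} [Fintype ι] [DecidableEq ι] {F : Type*} [Field F]

theorem units_pow_eq_one [Fintype F] {k : ℕ} (h : Fintype.card F = k + 1) (c : Fˣ) : c ^ k = 1 := by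
  classical
  have : Fintype.card Fˣ = k := by rw [Fintype.card_units, h]; rfl
  rw [← this, pow_card_eq_one]

theorem pow_eq_one_of_card [Fintype F] {k : ℕ} (h : Fintype.card F = k + 1) {c : F} (hc : c ≠ 0) :
    c ^ k = 1 := by
  simpa using congrArg Units.val (units_pow_eq_one h (Units.mk0 c hc))

theorem charP_of_card [Fintype F] {p e : ℕ} (hp : p.Prime) (h : Fintype.card F = p ^ e) :
    CharP F p := by
  haveI := Fact.mk hp
  exact charP_of_card_eq_prime_pow h

/-! ### Frames -/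

theorem frame_two [Fintype F] (hq : Fintype.card F = 2) {t : ℕ} {D : Fin t → Submodule F (ι → F)}
    (hD : IsMDecomposition 1 D) :
    ∃ W : Submodule F (ι → F), W ≠ ⊥ ∧ W ≠ ⊤ ∧ decompositionStabilizer D ≤ subspaceStabilizer W := by
  obtain ⟨e, P, h⟩ := IsMDecomposition.exists_monGL hD
  have ht := hD.two_le
  set w := (crd e P).symm 1 with hw
  have hw0 : w ≠ 0 := by
    rw [hw, Ne, LinearEquiv.map_eq_zero_iff]
    intro h0
    exact one_ne_zero (congrFun h0 ⟨0, by omega⟩)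
  refine ⟨Submodule.span F {w}, by simpa using hw0, fun h1 => ?_, le_subspaceStabilizer ?_⟩
  · have := finrank_span_singleton (K := F) hw0
    rw [h1, finrank_top, Module.finrank_fintype_fun_eq_card, Fintype.card_congr e,
      Fintype.card_fin] at this
    omega
  · intro g hg v hv
    obtain ⟨c, rfl⟩ := Submodule.mem_span_singleton.1 hv
    obtain ⟨π, d, hd⟩ := h g hg
    have : (g : Matrix ι ι F) *ᵥ w = w := by
      apply (crd e P).injective
      rw [crd_mulVec, hd, hw, LinearEquiv.apply_symm_apply, coe_monGL, mon_mulVec]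
      funext x
      have := units_pow_eq_one hq (d (π.symm x))
      rw [pow_one] at this
      simp [this]
    rw [Matrix.mulVec_smul, this]
    exact Submodule.smul_mem _ _ (Submodule.mem_span_singleton_self w)

theorem monGL_mem_similarityGroup {κ : Type} [Fintype κ] [DecidableEq κ] (φ : F →+* F)
    (π : Equiv.Perm κ) {d : κ → Fˣ} (hd : ∀ y, (d y : F) * φ (d y) = 1) :
    monGL π d ∈ similarityGroup (gform φ (1 : Matrix κ κ F)) := by
  refine mem_similarityGroup_gform.2 ⟨1, ?_⟩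
  rw [coe_monGL, mon_gram]
  simp [hd]

theorem frame_three [Fintype F] (hq : Fintype.card F = 3) {t : ℕ} {D : Fin t → Submodule F (ι → F)}
    (hD : IsMDecomposition 1 D) : InC8 (decompositionStabilizer D) := by
  obtain ⟨e, P, h⟩ := IsMDecomposition.exists_monGL hD
  refine inC8_of_symmetric (two_ne_zero_iff_odd_card.2 (hq ▸ by decide))
    (isSymmetricForm_trForm e P (isSymmetricForm_gform isUnit_one Matrix.transpose_one))
    fun g hg => mem_similarityGroup_trForm e P _ ?_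
  obtain ⟨π, d, hd⟩ := h g hg
  rw [hd]
  exact monGL_mem_similarityGroup _ π fun y => by
    rw [RingHom.id_apply, ← sq, pow_eq_one_of_card hq (d y).ne_zero]

theorem frame_four [Fintype F] (hq : Fintype.card F = 4) {t : ℕ} {D : Fin t → Submodule F (ι → F)}
    (hD : IsMDecomposition 1 D) : InC8 (decompositionStabilizer D) := by
  obtain ⟨e, P, h⟩ := IsMDecomposition.exists_monGL hD
  haveI : CharP F 2 := charP_of_card (e := 2) Nat.prime_two hq
  obtain ⟨σ, hσ, hne, hinv⟩ := exists_involution (F := F) (p := 2) (f := 1) one_pos hq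
  refine Or.inr (Or.inl ⟨σ, _, isUnitaryForm_trForm e P
    (isUnitaryForm_gform hne hinv isUnit_one (cT_one _)),
    fun g hg => mem_similarityGroup_trForm e P _ ?_⟩)
  obtain ⟨π, d, hd⟩ := h g hg
  rw [hd]
  exact monGL_mem_similarityGroup _ π fun y => by
    rw [RingHom.coe_coe, hσ, ← pow_succ', pow_eq_one_of_card (k := 2 ^ 1 + 1) hq (d y).ne_zero]

theorem frame_five [Fintype F] (hq : Fintype.card F = 5) {D : Fin 4 → Submodule F (ι → F)}
    (hD : IsMDecomposition 1 D) : ∃ R : Subgroup (GL ι F), IsLinearSymplecticTypeData 2 R ∧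
      IsEA 2 R ∧ decompositionStabilizer D ⊓ specialLinear ι F ≤ subgroupNormalizer R := by
  obtain ⟨e, P, h⟩ := IsMDecomposition.exists_monGL hD
  haveI : CharP F 5 := charP_of_card (e := 1) (by norm_num) hq
  have h2 : (2 : F) ≠ 0 := two_ne_zero_iff_odd_card.2 (hq ▸ by decide)
  have h5 : (5 : F) = 0 := by exact_mod_cast CharP.cast_eq_zero F 5
  obtain ⟨h1, h3, h4, h6⟩ := exists_x64 h2 (i := Units.mk0 2 h2)
    (Units.ext (by simp; linear_combination h5)) (by rw [hq]) e P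
  refine ⟨_, ⟨h3, absIrr_of_spanA_eq_top h1.span, 5, 1, by norm_num, ⟨by norm_num, inferInstance,
    hq, by rw [h4]; norm_num, fun d h0 h1 => by omega⟩, Or.inr (Or.inl ⟨rfl, rfl, h4, ?_, 2, h6⟩)⟩,
    h1, nrmS_iff_le_normalizer.1 (nrmS_map_trGL e P fun g hg x hx => ?_)⟩
  · rw [Fintype.card_congr e, Fintype.card_fin]
  · obtain ⟨π, d, hd⟩ := h g hg.1
    rw [hd]
    refine monGL_conj_mem_x64 π (fun y => units_pow_eq_one hq _) (prod_sq_eq_one_of_det (π := π) ?_)
      hx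
    rw [← hd, det_trGL_symm]
    exact mem_specialLinear.1 hg.2

/-! ### Planes -/

theorem isSymplecticForm_blockDiagonal_J2 (t : ℕ) :
    IsSymplecticForm (gform (RingHom.id F) (blockDiagonal fun _ : Fin t => J2 F)) := by
  refine isSymplecticForm_gform (isUnit_blockDiagonal_const isUnit_J2) ?_ fun i => ?_
  · rw [Matrix.blockDiagonal_transpose, ← Matrix.blockDiagonal_neg]
    congr 1
    funext _
    rw [J2_transpose, neg_one_smul]; rfl
  · rw [Matrix.blockDiagonal_apply, if_pos rfl, J2_diag]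

theorem planes_two [Fintype F] (hq : Fintype.card F = 2) {t : ℕ} {D : Fin t → Submodule F (ι → F)}
    (hD : IsMDecomposition 2 D) : InC8 (decompositionStabilizer D) := by
  obtain ⟨e, P, h⟩ := IsMDecomposition.exists_bmon hD
  refine Or.inl ⟨_, isSymplecticForm_trForm e P (isSymplecticForm_blockDiagonal_J2 t),
    fun g hg => mem_similarityGroup_trForm e P _ ?_⟩
  obtain ⟨σ, s, hs, hg⟩ := h g hg
  refine mem_similarityGroup_of_bmon _ hg one_ne_zero fun j => ?_
  have := pow_eq_one_of_card hq (hs j)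
  rw [pow_one] at this
  rw [← this]
  exact transpose_mul_J2_mul _

theorem planes_three [Fintype F] (hq : Fintype.card F = 3) {D : Fin 2 → Submodule F (ι → F)}
    (hD : IsMDecomposition 2 D) : InC8 (decompositionStabilizer D ⊓ specialLinear ι F) := by
  obtain ⟨e, P, h⟩ := IsMDecomposition.exists_bmon hD
  refine Or.inl ⟨_, isSymplecticForm_trForm e P (isSymplecticForm_blockDiagonal_J2 2),
    fun g hg => mem_similarityGroup_trForm e P _ ?_⟩
  obtain ⟨σ, s, hs, hg'⟩ := h g hg.1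
  have h1 := mem_specialLinear.1 hg.2
  rw [← det_trGL_symm e P, hg', det_bmon, Int.units_sq, Fin.prod_univ_two] at h1
  have h2 := pow_eq_one_of_card hq (hs 0)
  have h3 : (s 1).det = (s 0).det := by
    simp only [Units.val_one, Int.cast_one, one_mul] at h1
    linear_combination (s 0).det * h1 - (s 1).det * h2
  refine mem_similarityGroup_of_bmon _ hg' (hs 0) fun j => ?_
  have : (s 0).det = (s j).det := by fin_cases j <;> simp [h3]
  rw [this]
  exact transpose_mul_J2_mul _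

/-! ### Quadratic field extensions -/

/-- the algebra spanned by `1` and `y` with `y² = s y + t` -/
def quadAlg (y : Matrix ι ι F) (s t : F) (hy : y * y = s • y + t • 1) :
    Subalgebra F (Matrix ι ι F) :=
  (Submodule.span F (Set.range ![1, y])).toSubalgebra (Submodule.subset_span ⟨0, rfl⟩) (by
    intro a b ha hb
    rw [Matrix.range_cons, Matrix.range_cons, Matrix.range_empty, Set.union_empty,
      Set.singleton_union, Submodule.mem_span_pair] at ha hb ⊢
    obtain ⟨a, a', rfl⟩ := ha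
    obtain ⟨b, b', rfl⟩ := hb
    refine ⟨a * b + a' * b' * t, a * b' + a' * b + a' * b' * s, ?_⟩
    simp only [add_mul, mul_add, Matrix.smul_mul, Matrix.mul_smul, one_mul, mul_one, hy]
    module)

theorem mem_quadAlg {y : Matrix ι ι F} {s t : F} {hy : y * y = s • y + t • 1} {x : Matrix ι ι F} :
    x ∈ quadAlg y s t hy ↔ ∃ a b : F, a • 1 + b • y = x := by
  rw [quadAlg, Submodule.mem_toSubalgebra, Matrix.range_cons, Matrix.range_cons,
    Matrix.range_empty, Set.union_empty, Set.singleton_union, Submodule.mem_span_pair]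

theorem isFieldSubalgebra_quadAlg [Nonempty ι] {y : Matrix ι ι F} {s t : F}
    (hy : y * y = s • y + t • 1) (hirr : ∀ x : F, x * x ≠ s * x + t) :
    IsFieldSubalgebra 2 (quadAlg y s t hy) := by
  have hN : ∀ a b : F, a * a + a * b * s - b * b * t = 0 → a = 0 ∧ b = 0 := by
    intro a b h
    by_cases hb : b = 0
    · rw [hb] at h; exact ⟨by simpa using h, hb⟩
    · refine absurd ?_ (hirr (-a / b))
      field_simp
      linear_combination h
  have hmul : ∀ a b : F, (a • (1 : Matrix ι ι F) + b • y) * ((a + b * s) • 1 + (-b) • y) =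
      (a * a + a * b * s - b * b * t) • 1 := by
    intro a b
    simp only [add_mul, mul_add, Matrix.smul_mul, Matrix.mul_smul, one_mul, mul_one, hy]
    module
  refine ⟨fun a ha b hb => ?_, fun x hx h0 => ?_, ?_⟩
  · obtain ⟨a, a', rfl⟩ := mem_quadAlg.1 ha
    obtain ⟨b, b', rfl⟩ := mem_quadAlg.1 hb
    simp only [add_mul, mul_add, Matrix.smul_mul, Matrix.mul_smul, one_mul, mul_one]
    module
  · obtain ⟨a, b, rfl⟩ := mem_quadAlg.1 hx
    have : a * a + a * b * s - b * b * t ≠ 0 := fun h => h0 (by simp [(hN a b h).1, (hN a b h).2])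
    refine ⟨_, Subalgebra.smul_mem _ (mem_quadAlg.2 ⟨a + b * s, -b, rfl⟩)
      (a * a + a * b * s - b * b * t)⁻¹, ?_⟩
    rw [Matrix.mul_smul, hmul, smul_smul, inv_mul_cancel₀ this, one_smul]
  · have hli : LinearIndependent F ![1, y] := by
      rw [LinearIndependent.pair_iff]
      intro a b h
      apply hN
      have := hmul a b
      rw [h, zero_mul, eq_comm, smul_eq_zero] at this
      exact this.resolve_right one_ne_zero
    exact (finrank_span_eq_card hli).trans (Fintype.card_fin 2)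

theorem tensor_two [Fintype F] (hq : Fintype.card F = 2) {n₂ : ℕ} (hn : 0 < n₂)
    (e : ι ≃ Fin 2 × Fin n₂) (P : GL ι F) : ∃ K : Subalgebra F (Matrix ι ι F),
      IsFieldSubalgebra 2 K ∧ tensorProductSubgroup 2 n₂ e P ≤ subalgebraNormalizer K := by
  haveI : Nonempty ι := ⟨e.symm (0, ⟨0, hn⟩)⟩
  haveI : CharP F 2 := charP_of_card (e := 1) Nat.prime_two hq
  have h2 : (2 : F) = 0 := by exact_mod_cast CharP.cast_eq_zero F 2
  have hsq : ∀ x : F, x * x = x := fun x => by rw [← sq, ← hq, FiniteField.pow_card]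
  have h1 : ∀ x : F, x ≠ 0 → x = 1 := fun x hx => by simpa using pow_eq_one_of_card hq hx
  let ω : Matrix (Fin 2) (Fin 2) F := !![0, 1; 1, 1]
  have hω : ω * ω = ω + 1 := by
    ext i j; fin_cases i <;> fin_cases j <;> simp [ω] <;> linear_combination h2
  let y := tr e P (ω ⊗ₖ (1 : Matrix (Fin n₂) (Fin n₂) F))
  have hy : y * y = (1 : F) • y + (1 : F) • 1 := by
    rw [one_smul, one_smul, ← map_mul, ← Matrix.mul_kronecker_mul, hω, Matrix.add_kronecker,
      mul_one, map_add, Matrix.one_kronecker_one, map_one]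
  refine ⟨_, isFieldSubalgebra_quadAlg hy fun x => by rw [hsq]; simp,
    Nrm.le_subalgebraNormalizer fun g hg x hx => ?_⟩
  obtain ⟨a, b, rfl⟩ := mem_quadAlg.1 hx
  obtain ⟨s, t, hst⟩ := (mem_tensorProductSubgroup e P g).1 hg
  have hg' : g = trGL e P (kronGL s t) := by
    rw [← MulEquiv.symm_apply_eq]; exact Units.ext hst
  have key : cj s ω = cj s ω 0 0 • 1 + ω := by
    have ht : (cj s ω).trace = 1 := by rw [trace_cj]; simp [ω]
    have hd : (cj s ω).det ≠ 0 := by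
      rw [cj_apply, Matrix.det_units_conj]; simp [ω]
    generalize cj s ω = x at ht hd ⊢
    rw [Matrix.trace_fin_two] at ht
    rw [Matrix.det_fin_two] at hd
    have h0 : x 0 0 * x 1 1 = 0 := by linear_combination x 0 0 * ht - hsq (x 0 0)
    rw [h0, zero_sub, neg_ne_zero] at hd
    have h01 := h1 _ (left_ne_zero_of_mul hd)
    have h10 := h1 _ (right_ne_zero_of_mul hd)
    ext i j; fin_cases i <;> fin_cases j <;> simp [ω, h01, h10]
    linear_combination ht - x 0 0 * h2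
  rw [map_add, map_smul, map_smul, map_one, hg', cj_trGL, cj_kronGL, map_one, key,
    Matrix.add_kronecker, Matrix.smul_kronecker, Matrix.one_kronecker_one, map_add, map_smul,
    map_one]
  exact mem_quadAlg.2 ⟨a + b * cj s ω 0 0, b, by module⟩

/-! ### Field extensions: determinant and norm; the case `(n, q) = (3, 4)` -/

theorem IsFieldSubalgebra.eq_zero_of_mulVec {r : ℕ} {K : Subalgebra F (Matrix ι ι F)}
    (hK : IsFieldSubalgebra r K) {x : Matrix ι ι F} (hx : x ∈ K) {v : ι → F} (hv : v ≠ 0)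
    (h : x *ᵥ v = 0) : x = 0 := by
  by_contra h0
  obtain ⟨y, hy, hxy⟩ := hK.inv x hx h0
  rw [hK.comm x hx y hy] at hxy
  exact hv (by rw [← Matrix.one_mulVec v, ← hxy, ← Matrix.mulVec_mulVec, h, Matrix.mulVec_zero])

/-- the space is one-dimensional over a field subalgebra of full degree -/
noncomputable def IsFieldSubalgebra.equiv {K : Subalgebra F (Matrix ι ι F)}
    (hK : IsFieldSubalgebra (Fintype.card ι) K) {v : ι → F} (hv : v ≠ 0) : K ≃ₗ[F] (ι → F) :=
  LinearMap.linearEquivOfInjective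
    { toFun := fun k : K => (k : Matrix ι ι F) *ᵥ v
      map_add' := fun a b => Matrix.add_mulVec _ _ _
      map_smul' := fun c a => Matrix.smul_mulVec _ _ _ }
    ((injective_iff_map_eq_zero _).2 fun k hk =>
      Subtype.ext (IsFieldSubalgebra.eq_zero_of_mulVec hK k.2 hv hk))
    (by rw [hK.finrank_eq, Module.finrank_fintype_fun_eq_card])

theorem IsFieldSubalgebra.exists_mulVec_eq {K : Subalgebra F (Matrix ι ι F)}
    (hK : IsFieldSubalgebra (Fintype.card ι) K) {v : ι → F} (hv : v ≠ 0) (w : ι → F) :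
    ∃ k ∈ K, k *ᵥ v = w := by
  obtain ⟨k, hk⟩ := (IsFieldSubalgebra.equiv hK hv).surjective w
  exact ⟨k, k.2, hk⟩

theorem IsFieldSubalgebra.det_smul_one [Fintype F] [Nonempty ι] {K : Subalgebra F (Matrix ι ι F)}
    (hK : IsFieldSubalgebra (Fintype.card ι) K) {a : Matrix ι ι F} (ha : a ∈ K) :
    a.det • (1 : Matrix ι ι F) =
      a ^ ((Fintype.card F ^ Fintype.card ι - 1) / (Fintype.card F - 1)) := by
  haveI : Finite (Matrix ι ι F) := finite_matrix
  letI : Field K := (isField_subalgebra hK.comm hK.inv).toField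
  have hv : (1 : ι → F) ≠ 0 := one_ne_zero
  set ψ := IsFieldSubalgebra.equiv hK hv
  have h1 : Matrix.toLin' a = (ψ : K →ₗ[F] (ι → F)) ∘ₗ Algebra.lmul F K ⟨a, ha⟩ ∘ₗ
      (ψ.symm : (ι → F) →ₗ[F] K) := by
    refine LinearMap.ext fun w => ?_
    obtain ⟨k, rfl⟩ := ψ.surjective w
    simp only [LinearMap.comp_apply, LinearEquiv.coe_coe, LinearEquiv.symm_apply_apply]
    exact Matrix.mulVec_mulVec _ _ _
  have h2 : a.det = Algebra.norm F (⟨a, ha⟩ : K) := by
    rw [← LinearMap.det_toLin', h1, LinearMap.det_conj, Algebra.norm_apply]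
  have h3 := FiniteField.algebraMap_norm_eq_pow (K := F) (x := (⟨a, ha⟩ : K))
  rw [Module.natCard_eq_pow_finrank (K := F), hK.finrank_eq, Nat.card_eq_fintype_card, ← h2] at h3
  have := congrArg Subtype.val h3
  rwa [← Algebra.algebraMap_eq_smul_one]

theorem IsFieldSubalgebra.exists_orderOf [Fintype F] [Nonempty ι] {r : ℕ}
    {K : Subalgebra F (Matrix ι ι F)} (hK : IsFieldSubalgebra r K) {k : ℕ}
    (hk : k ∣ Fintype.card F ^ r - 1) :
    ∃ ζ ∈ K, orderOf ζ = k ∧ ∀ x ∈ K, x ^ k = 1 → ∃ j, x = ζ ^ j := by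
  classical
  haveI : Finite (Matrix ι ι F) := finite_matrix
  letI : Field K := (isField_subalgebra hK.comm hK.inv).toField
  have hc : Nat.card Kˣ = Fintype.card F ^ r - 1 := by
    rw [Nat.card_units, Module.natCard_eq_pow_finrank (K := F), hK.finrank_eq,
      Nat.card_eq_fintype_card]
  have hk0 : k ≠ 0 := by
    rintro rfl
    rw [← hc, zero_dvd_iff] at hk
    exact Nat.card_pos.ne' hk
  obtain ⟨g, hg⟩ := IsCyclic.exists_ofOrder_eq_natCard (α := Kˣ)
  have h1 : orderOf (g ^ (Nat.card Kˣ / k)) = k := by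
    rw [← hg]; exact orderOf_pow_orderOf_div (by rw [hg]; exact Nat.card_pos.ne') (by rwa [hg, hc])
  set ζ := g ^ (Nat.card Kˣ / k)
  have h2 : IsPrimitiveRoot (ζ : K) k := by
    rw [IsPrimitiveRoot.coe_units_iff, ← h1]; exact IsPrimitiveRoot.orderOf ζ
  refine ⟨(ζ : K), (ζ : K).2, ?_, fun x hx h => ?_⟩
  · rw [h2.eq_orderOf]
    exact orderOf_eq_orderOf_iff.2 fun n =>
      ⟨fun h => Subtype.ext h, fun h => congrArg Subtype.val h⟩
  · haveI : NeZero k := ⟨hk0⟩
    obtain ⟨j, -, hj⟩ := h2.eq_pow_of_pow_eq_one (ξ := ⟨x, hx⟩) (Subtype.ext h)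
    exact ⟨j, (congrArg Subtype.val hj).symm⟩

theorem IsFieldSubalgebra.mul_eq_zero {r : ℕ} {K : Subalgebra F (Matrix ι ι F)}
    (hK : IsFieldSubalgebra r K) {x y : Matrix ι ι F} (hx : x ∈ K) (h : x * y = 0) :
    x = 0 ∨ y = 0 := by
  by_cases h0 : x = 0
  · exact Or.inl h0
  obtain ⟨z, hz, hxz⟩ := hK.inv x hx h0
  rw [hK.comm x hx z hz] at hxz
  right
  rw [← one_mul y, ← hxz, mul_assoc, h, mul_zero]

theorem mem_ratS_iff_col {F₀ : Subfield F} {P : GL ι F} {x : Matrix ι ι F} :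
    x ∈ ratS F₀ P ↔ ∀ j i, (((P⁻¹ : GL ι F) : Matrix ι ι F) *ᵥ
      (x *ᵥ ((P : Matrix ι ι F) *ᵥ Pi.single j 1))) i ∈ F₀ := by
  rw [mem_ratS, forall_comm]
  refine forall_congr' fun j => forall_congr' fun i => ?_
  rw [Matrix.mulVec_mulVec, Matrix.mulVec_mulVec, Matrix.mulVec_single_one, cj_apply, inv_inv]
  rfl

theorem field_three_four [Fintype F] (hq : Fintype.card F = 4)
    {K : Subalgebra F (Matrix (Fin 3) (Fin 3) F)} (hK : IsFieldSubalgebra 3 K) :
    InC5 (subalgebraNormalizer K ⊓ specialLinear (Fin 3) F) := by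
  haveI : CharP F 2 := charP_of_card (e := 2) Nat.prime_two hq
  have h2 : (2 : F) = 0 := by exact_mod_cast CharP.cast_eq_zero F 2
  have h2' : (2 : Matrix (Fin 3) (Fin 3) F) = 0 := by
    rw [← one_add_one_eq_two, ← two_smul F, h2, zero_smul]
  have hK' : IsFieldSubalgebra (Fintype.card (Fin 3)) K := hK
  obtain ⟨θ, hθK, hθ, hroot⟩ : ∃ θ ∈ K, θ ^ 3 = θ + 1 ∧ ∀ x ∈ K, x ^ 7 = 1 → ∃ j, x = θ ^ j := by
    obtain ⟨ζ, hζK, hζ, hroot⟩ := IsFieldSubalgebra.exists_orderOf hK (k := 7) (by rw [hq]; norm_num)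
    have h7 : ζ ^ 7 = 1 := hζ ▸ pow_orderOf_eq_one ζ
    have h1 : ζ - 1 ≠ 0 := by
      intro h; rw [sub_eq_zero.1 h, orderOf_one] at hζ; omega
    have h3 : (ζ - 1) * ((ζ ^ 3 - (ζ + 1)) * (ζ ^ 3 - (ζ ^ 2 + 1))) = 0 := by
      have : (ζ - 1) * ((ζ ^ 3 - (ζ + 1)) * (ζ ^ 3 - (ζ ^ 2 + 1))) =
          (ζ ^ 7 - 1) + 2 * (-ζ ^ 6 + ζ ^ 3) := by noncomm_ring
      rw [this, h7, h2', sub_self, zero_mul, add_zero]
    rcases IsFieldSubalgebra.mul_eq_zero hK (K.sub_mem (K.pow_mem hζK 3) (K.add_mem hζK K.one_mem))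
      ((IsFieldSubalgebra.mul_eq_zero hK (K.sub_mem hζK K.one_mem) h3).resolve_left h1) with h | h
    · exact ⟨ζ, hζK, sub_eq_zero.1 h, hroot⟩
    · refine ⟨ζ ^ 6, K.pow_mem hζK 6, ?_, fun x hx hx7 => ?_⟩
      · have : (ζ ^ 6) ^ 3 - (ζ ^ 6 + 1) = (ζ ^ 7 - 1) * (ζ ^ 11 + ζ ^ 4 + 1) -
            ζ ^ 4 * (ζ ^ 3 - (ζ ^ 2 + 1)) + 2 * (-ζ ^ 6) := by noncomm_ring
        rw [← sub_eq_zero, this, h7, h, h2']; simp
      · obtain ⟨j, rfl⟩ := hroot x hx hx7
        refine ⟨6 * j, ?_⟩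
        rw [← pow_mul, show 6 * (6 * j) = 7 * (5 * j) + j by ring, pow_add, pow_mul, h7, one_pow,
          one_mul]
  have hθ7 : θ ^ 7 = 1 := by
    have : θ ^ 7 = (θ ^ 3 - (θ + 1)) * (θ ^ 4 + θ ^ 2 + θ + 1) + 1 + 2 * (θ ^ 2 + θ) := by
      noncomm_ring
    rw [this, hθ, h2']; simp
  have hnoroot : ∀ x : F, x ^ 3 ≠ x + 1 := by
    intro x hx
    have h4 : x ^ 4 = x := by rw [← hq, FiniteField.pow_card]
    have : x ^ 2 = 0 := by linear_combination h4 - x * hx
    rw [pow_eq_zero_iff two_ne_zero] at this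
    rw [this] at hx; simp at hx
  have hind : ∀ a b c : F, a • (1 : Matrix (Fin 3) (Fin 3) F) + b • θ + c • θ ^ 2 = 0 →
      a = 0 ∧ b = 0 ∧ c = 0 := by
    have hlin : ∀ a b : F, a • (1 : Matrix (Fin 3) (Fin 3) F) + b • θ = 0 → a = 0 ∧ b = 0 := by
      intro a b h
      by_cases hb : b = 0
      · rw [hb, zero_smul, add_zero, smul_eq_zero] at h
        exact ⟨h.resolve_right one_ne_zero, hb⟩
      · exfalso
        have h1 : θ = algebraMap F _ (-a / b) := by
          rw [Algebra.algebraMap_eq_smul_one, ← inv_smul_smul₀ hb θ, eq_neg_of_add_eq_zero_right h]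
          rw [← neg_smul, smul_smul, div_eq_inv_mul]
        rw [h1, ← map_pow, ← map_one (algebraMap F _), ← map_add] at hθ
        exact hnoroot _ ((algebraMap F _).injective hθ)
    intro a b c h
    by_cases hc : c = 0
    · rw [hc, zero_smul, add_zero] at h
      exact ⟨(hlin a b h).1, (hlin a b h).2, hc⟩
    · exfalso
      have h3 : a • θ + b • θ ^ 2 + c • (θ + 1) = 0 := by
        have := congrArg (θ * ·) h
        simpa only [mul_add, Matrix.mul_smul, mul_one, mul_zero, ← pow_succ', hθ, ← sq] using this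
      obtain ⟨e1, e2⟩ := hlin (c * c - a * b) (a * c + c * c - b * b) (by
        have : (c * c - a * b) • (1 : Matrix (Fin 3) (Fin 3) F) + (a * c + c * c - b * b) • θ =
          c • (a • θ + b • θ ^ 2 + c • (θ + 1)) - b • (a • 1 + b • θ + c • θ ^ 2) := by module
        rw [this, h, h3, smul_zero, smul_zero, sub_self])
      apply hnoroot (b / c)
      field_simp
      linear_combination (-b) * e2 - c * e1 + (-c ^ 3 + b * c ^ 2 + c ^ 3 - b * c ^ 2) * h2
  have hv : (1 : Fin 3 → F) ≠ 0 := one_ne_zero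
  let M : Matrix (Fin 3) (Fin 3) F := Matrix.of fun i j => (θ ^ (j : ℕ) *ᵥ 1) i
  have hM : ∀ c : Fin 3 → F, M *ᵥ c = (c 0 • 1 + c 1 • θ + c 2 • θ ^ 2) *ᵥ 1 := by
    intro c
    funext i
    simp only [Matrix.add_mulVec, Matrix.smul_mulVec, Pi.add_apply, Pi.smul_apply, smul_eq_mul]
    simp [M, Matrix.mulVec, dotProduct, Fin.sum_univ_three, mul_comm]
  have hu : IsUnit M := by
    rw [← Matrix.mulVec_injective_iff_isUnit]
    refine (injective_iff_map_eq_zero (Matrix.mulVecLin M)).2 fun c hc => ?_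
    rw [Matrix.mulVecLin_apply, hM] at hc
    obtain ⟨h0, h1, h2⟩ := hind _ _ _ (IsFieldSubalgebra.eq_zero_of_mulVec hK (K.add_mem (K.add_mem
      (K.smul_mem K.one_mem _) (K.smul_mem hθK _)) (K.smul_mem (K.pow_mem hθK 2) _)) hv hc)
    funext i; fin_cases i <;> assumption
  let P : GL (Fin 3) F := hu.unit
  have hP : ∀ j : Fin 3, (P : Matrix (Fin 3) (Fin 3) F) *ᵥ Pi.single j 1 = θ ^ (j : ℕ) *ᵥ 1 := by
    intro j; rw [Matrix.mulVec_single_one]; rfl
  let F₀ := fixSub F 2 1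
  have hrat : ∀ k : ℕ, ∀ i, (((P⁻¹ : GL (Fin 3) F) : Matrix (Fin 3) (Fin 3) F) *ᵥ (θ ^ k *ᵥ 1)) i
      ∈ F₀ := by
    have h0 : ∀ j : Fin 3, ∀ i, (((P⁻¹ : GL (Fin 3) F) : Matrix (Fin 3) (Fin 3) F) *ᵥ
        (θ ^ (j : ℕ) *ᵥ 1)) i ∈ F₀ := by
      intro j i
      rw [← hP, gl_inv_mulVec, Pi.single_apply]
      split_ifs
      · exact F₀.one_mem
      · exact F₀.zero_mem
    intro k
    induction k using Nat.strong_induction_on with
    | _ k ih =>
      by_cases hk : k < 3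
      · exact h0 ⟨k, hk⟩
      obtain ⟨l, rfl⟩ : ∃ l, k = l + 3 := ⟨k - 3, by omega⟩
      intro i
      rw [pow_add, hθ, mul_add, mul_one, ← pow_succ, Matrix.add_mulVec, Matrix.mulVec_add]
      exact F₀.add_mem (ih _ (by omega) i) (ih _ (by omega) i)
  obtain ⟨F₁, r, hr, hle, hcard⟩ := exists_subfield_prime_index
    (fixSub_ne_top (F := F) (p := 2) (e := 2) (d := 1) hq one_pos one_lt_two)
  refine ⟨F₁, r, P, hr, hcard, le_trans ?_ (subfieldSubgroup_mono hle P)⟩
  rintro g ⟨hg, hdet⟩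
  obtain ⟨a, haK, ha⟩ := IsFieldSubalgebra.exists_mulVec_eq hK' hv
    ((g : Matrix (Fin 3) (Fin 3) F) *ᵥ 1)
  have ha0 : a ≠ 0 := by
    rintro rfl
    exact gl_mulVec_ne_zero g hv (by rw [← ha, Matrix.zero_mulVec])
  obtain ⟨a', ha'K, haa'⟩ := hK.inv a haK ha0
  have ha'a : a' * a = 1 := by rw [hK.comm _ ha'K _ haK, haa']
  have hgθ : cj g θ ∈ K := nrm_subalgebraNormalizer K g hg θ hθK
  obtain ⟨l, hl⟩ := hroot _ hgθ (by rw [← map_pow, hθ7, map_one])
  have hg0 : a' * (g : Matrix (Fin 3) (Fin 3) F) ∈ ratS F₀ P := by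
    refine mem_ratS_iff_col.2 fun j i => ?_
    rw [hP, ← Matrix.mulVec_mulVec, ← cj_mulVec g, map_pow, hl, ← pow_mul, ← ha,
      Matrix.mulVec_mulVec _ a', Matrix.mulVec_mulVec _ (a' * _),
      hK.comm _ ha'K _ (K.pow_mem hθK _), mul_assoc, ha'a, mul_one]
    exact hrat _ i
  have hd0 : (a' * (g : Matrix (Fin 3) (Fin 3) F)).det ∈ F₀ := by
    rw [← Matrix.det_units_conj P⁻¹, ← cj_apply, Matrix.det_apply']
    exact F₀.sum_mem fun σ _ => F₀.mul_mem (intCast_mem F₀ _)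
      (F₀.prod_mem fun i _ => mem_ratS.1 hg0 _ _)
  have hda : a.det = 1 := by
    have h1 : a'.det * a.det = 1 := by rw [← Matrix.det_mul, ha'a, Matrix.det_one]
    rw [Matrix.det_mul, mem_specialLinear.1 hdet, mul_one, mem_fixSub, pow_one, sq] at hd0
    rw [mul_left_eq_self₀] at hd0
    rcases hd0 with h | h <;> rw [h] at h1
    · rwa [one_mul] at h1
    · simp at h1
  have h21 : a ^ 21 = 1 := by
    have := IsFieldSubalgebra.det_smul_one hK' haK
    rw [hda, one_smul, hq] at this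
    exact this.symm
  obtain ⟨k, hk⟩ := hroot (a ^ 15) (K.pow_mem haK _) (by
    rw [← pow_mul, show 15 * 7 = 21 * 5 from rfl, pow_mul, h21, one_pow])
  obtain ⟨c, hc0, hc⟩ : ∃ c : F, c ≠ 0 ∧ a ^ 7 = c • 1 := by
    obtain ⟨K', hK1, hmem⟩ := exists_subfield_subalgebra hK.comm hK.inv 1 (one_dvd _)
    obtain ⟨c, hc⟩ := scalar_of_finrank_eq_one hK1.finrank_eq (a ^ 7)
      ((hmem _).2 ⟨K.pow_mem haK _, by
        rw [Nat.card_eq_fintype_card, hq, ← pow_mul, show 7 * 4 ^ 1 = 21 + 7 from rfl, pow_add, h21,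
          one_mul]⟩)
    refine ⟨c, ?_, hc⟩
    rintro rfl
    rw [show 21 = 7 * 3 from rfl, pow_mul, hc] at h21
    simp at h21
  refine mem_subfieldSubgroup_iff.2 ⟨c⁻¹, inv_ne_zero hc0, fun i j => ?_⟩
  have hθr : θ ∈ ratS F₀ P := mem_ratS_iff_col.2 fun j i => by
    rw [hP, Matrix.mulVec_mulVec 1, ← pow_succ']; exact hrat _ i
  have h1 := mem_ratS.1 ((ratS F₀ P).mul_mem ((ratS F₀ P).pow_mem hθr k) hg0) i j
  have h3 : (g : Matrix (Fin 3) (Fin 3) F) = c • (θ ^ k * (a' * g)) := by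
    rw [← hk, ← Matrix.smul_mul, ← smul_one_mul c (a ^ 15), ← hc, ← pow_add, ← mul_assoc,
      show 7 + 15 = 21 + 1 from rfl, pow_succ, h21, one_mul, haa', one_mul]
  rw [h3, map_smul, Matrix.smul_apply, smul_eq_mul, inv_mul_cancel_left₀ hc0]
  exact h1

/-! ### Arithmetic of class 6 -/

theorem IsLinearSymplecticTypeData.odd [Fintype F] {r : ℕ} {R : Subgroup (GL ι F)}
    (h : IsLinearSymplecticTypeData r R) (hr : r ≠ 2) :
    ∃ p e : ℕ, p.Prime ∧ CharP F p ∧ Fintype.card F = p ^ e ∧ Odd e ∧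
      (∀ d, 0 < d → (p : ZMod r) ^ d = 1 → e ≤ d) ∧ (p : ZMod r) ^ e = 1 := by
  obtain ⟨p, e, -, ⟨hp, hc, hF, h1, h2⟩, h3⟩ := h.field
  rcases h3 with ⟨-, he, hz, -⟩ | ⟨h, -⟩ | ⟨h, -⟩
  · rw [hz] at h1 h2
    have key : ∀ d, r ∣ p ^ d - 1 ↔ (p : ZMod r) ^ d = 1 := fun d => by
      rw [← ZMod.natCast_eq_zero_iff, Nat.cast_sub (Nat.one_le_pow d p hp.pos), sub_eq_zero,
        Nat.cast_pow, Nat.cast_one]
    refine ⟨p, e, hp, hc, hF, he, fun d h0 hd => ?_, (key e).1 h1⟩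
    by_contra hlt
    exact h2 d h0 (by omega) ((key d).2 hd)
  · exact absurd h hr
  · exact absurd h hr

theorem IsLinearSymplecticTypeData.two [Fintype F] {R : Subgroup (GL ι F)}
    (h : IsLinearSymplecticTypeData 2 R) (hι : 3 ≤ Fintype.card ι) :
    ∃ p : ℕ, p.Prime ∧ Fintype.card F = p ∧ p % 4 = 1 := by
  obtain ⟨p, e, -, ⟨hp, hc, hF, h1, h2⟩, h3⟩ := h.field
  rcases h3 with ⟨h, -⟩ | ⟨-, rfl, hz, -⟩ | ⟨-, -, h, -⟩
  · exact absurd h (by decide)
  · rw [hz, pow_one] at h1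
    have := hp.two_le
    exact ⟨p, hp, by rw [hF, pow_one], by omega⟩
  · omega

theorem IsLinearSymplecticTypeData.odd_nat [Fintype F] {r : ℕ} {R : Subgroup (GL ι F)}
    (h : IsLinearSymplecticTypeData r R) (hr : r ≠ 2) :
    ∃ p e : ℕ, p.Prime ∧ CharP F p ∧ Fintype.card F = p ^ e ∧ p % r < r ∧ e < r ∧ Odd e ∧
      (p % r) ^ e % r = 1 ∧ ∀ d < r, 0 < d → (p % r) ^ d % r = 1 → e ≤ d := by
  obtain ⟨p, e, hp, hc, hF, he, h1, h2⟩ := IsLinearSymplecticTypeData.odd h hr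
  have hr' := h.symplecticType.prime
  haveI := Fact.mk hr'
  have key : ∀ d, (p : ZMod r) ^ d = 1 ↔ (p % r) ^ d % r = 1 := fun d => by
    rw [← Nat.pow_mod, ← Nat.cast_pow, ← Nat.cast_one, ZMod.natCast_eq_natCast_iff',
      Nat.mod_eq_of_lt hr'.one_lt]
  have h0 : (p : ZMod r) ≠ 0 := by
    intro h0
    rw [h0, zero_pow he.pos.ne'] at h2
    exact zero_ne_one h2
  have h3 := h1 (r - 1) (by have := hr'.two_le; omega) (ZMod.pow_card_sub_one_eq_one h0)
  exact ⟨p, e, hp, hc, hF, Nat.mod_lt _ hr'.pos, by have := hr'.two_le; omega, he, (key e).1 h2,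
    fun d _ hd h => h1 d hd ((key d).2 h)⟩

theorem pow_le_fifteen {m t : ℕ} (hm : 3 ≤ m) (ht : 2 ≤ t) (h : m ^ t ≤ 15) : m = 3 ∧ t = 2 := by
  have h1 : m ^ 2 ≤ m ^ t := Nat.pow_le_pow_right (by omega) ht
  have h2 : 3 ^ t ≤ m ^ t := Nat.pow_le_pow_left hm t
  refine ⟨by nlinarith, ?_⟩
  by_contra h3
  have : 3 ^ 3 ≤ 3 ^ t := Nat.pow_le_pow_right (by omega) (by omega)
  omega

/-! ### Maximal subgroups of the special linear group -/

/-- The refined list of cases for a maximal subgroup of `SL ι F`. -/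
theorem sl_cases [Fintype F] {n : ℕ} (hn : 3 ≤ n) {H : Subgroup (GL (Fin n) F)}
    (hH : IsMaximalIn (specialLinear (Fin n) F) H) :
    (∃ W : Submodule F (Fin n → F), W ≠ ⊥ ∧ W ≠ ⊤ ∧
      H = subspaceStabilizer W ⊓ specialLinear (Fin n) F) ∨
    (∃ (t m : ℕ), t * m = n ∧ 2 ≤ t ∧ (m = 1 → 5 ≤ Fintype.card F) ∧
      (m = 1 → t = 4 → 7 ≤ Fintype.card F) ∧ (m = 2 → 3 ≤ Fintype.card F) ∧
      (m = 2 → t = 2 → 4 ≤ Fintype.card F) ∧ ∃ D : Fin t → Submodule F (Fin n → F),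
      IsMDecomposition m D ∧ H = decompositionStabilizer D ⊓ specialLinear (Fin n) F) ∨
    (∃ r : ℕ, r.Prime ∧ r ∣ n ∧ (n = 3 → Fintype.card F ≠ 4) ∧
      ∃ K : Subalgebra F (Matrix (Fin n) (Fin n) F), IsFieldSubalgebra r K ∧
      H = subalgebraNormalizer K ⊓ specialLinear (Fin n) F) ∨
    (∃ n₁ n₂ : ℕ, 2 ≤ n₁ ∧ n₁ < n₂ ∧ n₁ * n₂ = n ∧ (n₁ = 2 → 3 ≤ Fintype.card F) ∧
      ∃ (e : Fin n ≃ Fin n₁ × Fin n₂) (P : GL (Fin n) F),
      H = tensorProductSubgroup n₁ n₂ e P ⊓ specialLinear (Fin n) F) ∨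
    (∃ (F₀ : Subfield F) (r : ℕ) (P : GL (Fin n) F), r.Prime ∧ Fintype.card F = Nat.card F₀ ^ r ∧
      H = subfieldSubgroup F₀ P ⊓ specialLinear (Fin n) F) ∨
    (∃ r m : ℕ, r.Prime ∧ 1 ≤ m ∧ n = r ^ m ∧ ∃ R : Subgroup (GL (Fin n) F),
      IsLinearSymplecticTypeData r R ∧ H = subgroupNormalizer R ⊓ specialLinear (Fin n) F) ∨
    (∃ m t : ℕ, 3 ≤ m ∧ 2 ≤ t ∧ m ^ t = n ∧ ∃ (e : Fin n ≃ (Fin t → Fin m)) (P : GL (Fin n) F),
      H = tensorWreathSubgroup m t e P ⊓ specialLinear (Fin n) F) ∨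
    (Odd (Fintype.card F) ∧ ∃ Q : (Fin n → F) → F, IsNondegenerateQuadraticForm Q ∧
      H = quadSimilarityGroup Q ⊓ specialLinear (Fin n) F) ∨
    (Even n ∧ ∃ f : (Fin n → F) → (Fin n → F) → F, IsSymplecticForm f ∧
      H = similarityGroup f ⊓ specialLinear (Fin n) F) ∨
    (∃ (σ : F ≃+* F) (f : (Fin n → F) → (Fin n → F) → F), IsUnitaryForm σ f ∧
      H = similarityGroup f ⊓ specialLinear (Fin n) F) ∨
    InLinearResidualClass H := by
  have hι : 3 ≤ Fintype.card (Fin n) := by rwa [Fintype.card_fin]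
  haveI : Nontrivial (Fin n) := Fin.nontrivial_iff_two_le.2 (by omega)
  have hG := tg_specialLinear (F := F) hι
  have hq2 : 2 ≤ Fintype.card F := Fintype.one_lt_card
  have hq6 : Fintype.card F ≠ 6 := fun h =>
    absurd (h ▸ FiniteField.isPrimePow_card F : IsPrimePow 6) (by decide)
  have hSL := hH.1.le
  have c1 := fun (W : Submodule F (Fin n → F)) (h1 : W ≠ ⊥) (h2 : W ≠ ⊤)
    (h : H ≤ subspaceStabilizer W) => IsMaximalIn.eq_inf hH h (hG.not_le_subspaceStabilizer h1 h2)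
  have c5 : InC5 H → ∃ (F₀ : Subfield F) (r : ℕ) (P : GL (Fin n) F), r.Prime ∧
      Fintype.card F = Nat.card F₀ ^ r ∧ H = subfieldSubgroup F₀ P ⊓ specialLinear (Fin n) F := by
    rintro ⟨F₀, r, P, hr, hc, h⟩
    exact ⟨F₀, r, P, hr, hc, IsMaximalIn.eq_inf hH h (specialLinear_not_le_subfieldSubgroup
      (by omega) (ne_top_of_card_eq_pow hr.two_le hc) P)⟩
  have c6 : ∀ (r : ℕ) (R : Subgroup (GL (Fin n) F)), IsLinearSymplecticTypeData r R → IsEA r R →
      H ≤ subgroupNormalizer R → ∃ r m : ℕ, r.Prime ∧ 1 ≤ m ∧ n = r ^ m ∧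
      ∃ R : Subgroup (GL (Fin n) F), IsLinearSymplecticTypeData r R ∧
        H = subgroupNormalizer R ⊓ specialLinear (Fin n) F := by
    intro r R h1 h2 h
    obtain ⟨m, hm, hc⟩ := h2.exists_card_eq
    exact ⟨r, m, h2.prime, hm, by rw [← hc, Fintype.card_fin], R, h1,
      IsMaximalIn.eq_inf hH h (specialLinear_not_le_subgroupNormalizer hι h2)⟩
  have c8 : ∀ {M : Subgroup (GL (Fin n) F)}, InC8 M → H ≤ M →
      (Odd (Fintype.card F) ∧ ∃ Q : (Fin n → F) → F, IsNondegenerateQuadraticForm Q ∧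
        H = quadSimilarityGroup Q ⊓ specialLinear (Fin n) F) ∨
      (Even n ∧ ∃ f : (Fin n → F) → (Fin n → F) → F, IsSymplecticForm f ∧
        H = similarityGroup f ⊓ specialLinear (Fin n) F) ∨
      (∃ (σ : F ≃+* F) (f : (Fin n → F) → (Fin n → F) → F), IsUnitaryForm σ f ∧
        H = similarityGroup f ⊓ specialLinear (Fin n) F) ∨ InLinearResidualClass H := by
    rintro M (⟨f, hf, h⟩ | ⟨σ, f, hf, h⟩ | ⟨ho, Q, hQ, h⟩) hM
    · exact Or.inr (Or.inl ⟨by simpa using even_card_of_symplectic hf, f, hf,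
        IsMaximalIn.eq_inf hH (hM.trans h)
          (specialLinear_not_le_similarityGroup hι hf.bilinear.add_left hf.nondegenerate)⟩)
    · exact Or.inr (Or.inr (Or.inl ⟨σ, f, hf, IsMaximalIn.eq_inf hH (hM.trans h)
          (specialLinear_not_le_similarityGroup hι hf.add_left hf.nondegenerate)⟩))
    · exact Or.inl ⟨ho, Q, hQ, IsMaximalIn.eq_inf hH (hM.trans h)
          (specialLinear_not_le_quadSimilarityGroup hι hQ)⟩
  have c3 : ∀ (r : ℕ) (K : Subalgebra F (Matrix (Fin n) (Fin n) F)), r.Prime →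
      IsFieldSubalgebra r K → H ≤ subalgebraNormalizer K → InC5 H ∨
      ∃ r : ℕ, r.Prime ∧ r ∣ n ∧ (n = 3 → Fintype.card F ≠ 4) ∧
      ∃ K : Subalgebra F (Matrix (Fin n) (Fin n) F), IsFieldSubalgebra r K ∧
      H = subalgebraNormalizer K ⊓ specialLinear (Fin n) F := by
    intro r K hr hK h
    have hd : r ∣ n := by simpa using IsFieldSubalgebra.dvd_card hK
    by_cases h34 : n = 3 ∧ Fintype.card F = 4
    · obtain ⟨rfl, hq⟩ := h34
      obtain rfl := (Nat.prime_dvd_prime_iff_eq hr Nat.prime_three).1 hd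
      obtain ⟨F₀, r, P, h1, h2, h3⟩ := field_three_four hq hK
      exact Or.inl ⟨F₀, r, P, h1, h2, (le_inf h hSL).trans h3⟩
    · exact Or.inr ⟨r, hr, hd, fun h1 h2 => h34 ⟨h1, h2⟩, K, hK,
        IsMaximalIn.eq_inf hH h (hG.not_le_subalgebraNormalizer hι hr.two_le hK)⟩
  rcases aschbacher_linear hι H with ⟨W, h1, h2, h⟩ | ⟨t, m, D, hD, h⟩ | ⟨r, K, hr, hK, h⟩ |
    ⟨n₁, n₂, e, P, h1, h2, h⟩ | h | ⟨r, R, h1, h2, h⟩ | ⟨m, t, e, P, h1, h2, h⟩ | h | h
  · exact Or.inl ⟨W, h1, h2, c1 W h1 h2 h⟩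
  · by_cases a1 : m = 1 ∧ Fintype.card F = 2
    · obtain ⟨rfl, hq⟩ := a1
      obtain ⟨W, h1, h2, h3⟩ := frame_two hq hD
      exact Or.inl ⟨W, h1, h2, c1 W h1 h2 (h.trans h3)⟩
    right
    by_cases a2 : m = 1 ∧ Fintype.card F = 3
    · obtain ⟨rfl, hq⟩ := a2
      iterate 6 right
      exact c8 (frame_three hq hD) h
    by_cases a3 : m = 1 ∧ Fintype.card F = 4
    · obtain ⟨rfl, hq⟩ := a3
      iterate 6 right
      exact c8 (frame_four hq hD) h
    by_cases a4 : m = 1 ∧ t = 4 ∧ Fintype.card F = 5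
    · obtain ⟨rfl, rfl, hq⟩ := a4
      obtain ⟨R, h1, h2, h3⟩ := frame_five hq hD
      iterate 4 right
      exact Or.inl (c6 2 R h1 h2 ((le_inf h hSL).trans h3))
    by_cases a5 : m = 2 ∧ Fintype.card F = 2
    · obtain ⟨rfl, hq⟩ := a5
      iterate 6 right
      exact c8 (planes_two hq hD) h
    by_cases a6 : m = 2 ∧ t = 2 ∧ Fintype.card F = 3
    · obtain ⟨rfl, rfl, hq⟩ := a6
      iterate 6 right
      exact c8 (planes_three hq hD) (le_inf h hSL)
    exact Or.inl ⟨t, m, by simpa using IsMDecomposition.mul_eq_card hD, hD.two_le, by omega,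
      by omega, by omega, by omega, D, hD,
      IsMaximalIn.eq_inf hH h (hG.not_le_decompositionStabilizer hD)⟩
  · rcases c3 r K hr hK h with h | h
    · iterate 4 right
      exact Or.inl (c5 h)
    · exact Or.inr (Or.inr (Or.inl h))
  · by_cases a1 : n₁ = 2 ∧ Fintype.card F = 2
    · obtain ⟨rfl, hq⟩ := a1
      obtain ⟨K, hK, h3⟩ := tensor_two hq (by omega) e P
      rcases c3 2 K Nat.prime_two hK (h.trans h3) with h | h
      · iterate 4 right
        exact Or.inl (c5 h)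
      · exact Or.inr (Or.inr (Or.inl h))
    · iterate 3 right
      exact Or.inl ⟨n₁, n₂, h1, h2, by simpa using (Fintype.card_congr e).symm, by omega, e, P,
        IsMaximalIn.eq_inf hH h (hG.not_le_tensorProductSubgroup h1 (by omega) e P)⟩
  · iterate 4 right
    exact Or.inl (c5 h)
  · iterate 5 right
    exact Or.inl (c6 r R h1 h2 h)
  · iterate 6 right
    exact Or.inl ⟨m, t, h1, h2, by simpa using (Fintype.card_congr e).symm, e, P,
      IsMaximalIn.eq_inf hH h (hG.not_le_tensorWreathSubgroup (by omega) h2 (Or.inl h1) e P)⟩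
  · iterate 7 right
    exact c8 h le_rfl
  · iterate 10 right
    exact h

end H10.Asch
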