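import Cfsg.Agent.Lib.Asch.GQ
import Cfsg.Agent.Lib.Asch.ExclL
import Cfsg.Agent.Lib.Forms.Classify

/-!
Certificates of non-maximality in `SU_n(q)` for small `q`: a property of matrices over a concrete
model of the field, closed under products, that holds on `H` and on one more element but not on
all of `SU_n(q)`.
-/

set_option autoImplicit false

namespace H10.Asch

open Matrix Cfsg Cfsg.Geo

/-- A concrete model `R` of the field `F` with `q²` elements. -/
structure Mdl (R : Type) [CommRing R] [StarRing R] (F : Type*) [Field F] (q : ℕ) where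
  φ : R ≃+* F
  σ : F →+* F
  hσ : ∀ x, σ x = x ^ q
  st : ∀ a, φ (star a) = σ (φ a)
  ne : σ ≠ RingHom.id F

theorem exists_mdl {R : Type} [CommRing R] [StarRing R] [Fintype R] (hR : IsField R) {q : ℕ}
    (hc : Fintype.card R = q ^ 2) (hs : ∀ a : R, star a = a ^ q) (hne : ∃ a : R, star a ≠ a)
    {F : Type*} [Field F] [Fintype F] (hF : Fintype.card F = q ^ 2) : Nonempty (Mdl R F q) := by
  obtain ⟨φ, hφ⟩ := exists_model hR hc hs hF
  obtain ⟨a, ha⟩ := hne
  refine ⟨⟨φ, φ.toRingHom.comp ((starRingEnd R).comp φ.symm.toRingHom), fun x => ?_,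
    fun a => ?_, fun h => ha (φ.injective ?_)⟩⟩
  · simp [starRingEnd_apply, hφ]
  · simp [starRingEnd_apply]
  · simpa [starRingEnd_apply] using RingHom.congr_fun h (φ a)

theorem exists_mdl_two {F : Type*} [Field F] [Fintype F] (hF : Fintype.card F = 2 ^ 2) :
    Nonempty (Mdl G4 F 2) := exists_mdl G4.isField G4.card G4.star_eq (by decide +kernel) hF

theorem exists_mdl_three {F : Type*} [Field F] [Fintype F] (hF : Fintype.card F = 3 ^ 2) :
    Nonempty (Mdl G9 F 3) := exists_mdl G9.isField G9.card G9.star_eq (by decide +kernel) hF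

theorem exists_mdl_five {F : Type*} [Field F] [Fintype F] (hF : Fintype.card F = 5 ^ 2) :
    Nonempty (Mdl G25 F 5) := exists_mdl G25.isField G25.card G25.star_eq (by decide +kernel) hF

section
variable {R : Type} [CommRing R] [StarRing R] {ι : Type} [Fintype ι]

/-- The standard Hermitian form over the model. -/
def hf (u v : ι → R) : R := u ⬝ᵥ star v

theorem star_mulVec' (a : Matrix ι ι R) (v : ι → R) : star (a *ᵥ v) = a.map star *ᵥ star v := by
  ext i
  simp [Matrix.mulVec, dotProduct]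

theorem hf_mulVec [DecidableEq ι] {a : Matrix ι ι R} (ha : aᵀ * a.map star = 1) (u v : ι → R) :
    hf (a *ᵥ u) (a *ᵥ v) = hf u v := by
  rw [hf, hf, star_mulVec', Matrix.dotProduct_mulVec, Matrix.vecMul_mulVec, ha, Matrix.vecMul_one]

end

variable {R : Type} [CommRing R] [StarRing R] {F : Type*} [Field F] {q n : ℕ}

namespace Mdl

variable (M : Mdl R F q)

theorem σσ (x : F) : M.σ (M.σ x) = x := by
  obtain ⟨a, rfl⟩ := M.φ.surjective x
  rw [← M.st, ← M.st, star_star]

theorem herm_eq (u v : Fin n → F) : hermForm n F q u v = gform M.σ 1 u v := by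
  simp [gform, hermForm, dotProduct, M.hσ]

theorem herm_symm (u v : Fin n → F) : M.σ (hermForm n F q u v) = hermForm n F q v u := by
  simp only [hermForm, map_sum, map_mul, ← M.hσ, M.σσ]
  exact Finset.sum_congr rfl fun i _ => mul_comm _ _

theorem herm_smul_left (c : F) (u v : Fin n → F) :
    hermForm n F q (c • u) v = c * hermForm n F q u v := by
  simp only [hermForm, Finset.mul_sum, Pi.smul_apply, smul_eq_mul, mul_assoc]

theorem herm_add_left (u u' v : Fin n → F) :
    hermForm n F q (u + u') v = hermForm n F q u v + hermForm n F q u' v := by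
  simp only [hermForm, Pi.add_apply, add_mul, Finset.sum_add_distrib]

include M in
theorem herm_smul_right (c : F) (u v : Fin n → F) :
    hermForm n F q u (c • v) = M.σ c * hermForm n F q u v := by
  rw [← M.herm_symm, herm_smul_left, map_mul, M.herm_symm]

include M in
theorem herm_add_right (u v v' : Fin n → F) :
    hermForm n F q u (v + v') = hermForm n F q u v + hermForm n F q u v' := by
  rw [← M.herm_symm, herm_add_left, map_add, M.herm_symm, M.herm_symm]

include M in
theorem eq_zero_of_herm {u : Fin n → F} (h : ∀ v, hermForm n F q u v = 0) : u = 0 := by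
  ext i
  have := h (Pi.single i 1)
  simp only [hermForm, ← M.hσ] at this
  rw [Finset.sum_eq_single i (fun j _ hj => by simp [hj]) (by simp)] at this
  simpa using this

theorem mem_GU {g : GL (Fin n) F} : g ∈ GU n F q ↔
    (g : Matrix (Fin n) (Fin n) F)ᵀ * (g : Matrix (Fin n) (Fin n) F).map M.σ = 1 := by
  change (∀ u v, hermForm n F q ((g : Matrix (Fin n) (Fin n) F) *ᵥ u)
    ((g : Matrix (Fin n) (Fin n) F) *ᵥ v) = hermForm n F q u v) ↔ _
  simp only [M.herm_eq, gform_mulVec, mul_one]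
  exact ⟨gform_inj, fun h u v => by rw [h]⟩

theorem exists_norm [Finite F] {c : F} (h : M.σ c = c) (hc : c ≠ 0) :
    ∃ μ, μ * (M.σ μ * c) = 1 := by
  obtain ⟨a, ha⟩ := H28.exists_norm_eq M.ne M.σσ (t := c⁻¹) (by rw [map_inv₀, h])
  exact ⟨a, by rw [← mul_assoc, mul_comm a, ha, inv_mul_cancel₀ hc]⟩

theorem map_inj {ι κ : Type*} {a b : Matrix ι κ R} (h : a.map M.φ = b.map M.φ) : a = b :=
  Matrix.map_injective M.φ.injective h

theorem map_star {ι κ : Type*} (a : Matrix ι κ R) :
    (a.map star).map M.φ = (a.map M.φ).map M.σ := by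
  ext i j; exact M.st _

theorem map_mul' {ι : Type*} [Fintype ι] (a b : Matrix ι ι R) :
    (a * b).map M.φ = a.map M.φ * b.map M.φ := Matrix.map_mul (f := M.φ)

theorem map_one' {ι : Type*} [DecidableEq ι] : (1 : Matrix ι ι R).map M.φ = 1 :=
  Matrix.map_one _ (map_zero _) (map_one _)

theorem det_map {ι : Type*} [Fintype ι] [DecidableEq ι] (a : Matrix ι ι R) :
    (a.map M.φ).det = M.φ a.det := (RingEquiv.map_det M.φ a).symm

theorem gram_eq {P g : Matrix (Fin n) (Fin n) F} {G a : Matrix (Fin n) (Fin n) R}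
    (hP : Pᵀ * P.map M.σ = G.map M.φ) (h : P * a.map M.φ = g * P) :
    (aᵀ * G * a.map star).map M.φ = Pᵀ * (gᵀ * g.map M.σ) * P.map M.σ := by
  have h1 : (P * a.map M.φ)ᵀ * (P * a.map M.φ).map M.σ = (g * P)ᵀ * (g * P).map M.σ := by rw [h]
  rw [Matrix.transpose_mul, Matrix.transpose_mul, Matrix.map_mul, Matrix.map_mul] at h1
  rw [M.map_mul', M.map_mul', M.map_star, ← hP, Matrix.transpose_map]
  simp only [mul_assoc] at h1 ⊢
  exact h1

/-- The certificate lemma. -/
theorem not_max [Finite F] {H : Subgroup (GL (Fin n) F)} {P : Matrix (Fin n) (Fin n) F}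
    {G : Matrix (Fin n) (Fin n) R} (hP : Pᵀ * P.map M.σ = G.map M.φ) (hG : G.det ≠ 0)
    (Q : Matrix (Fin n) (Fin n) R → Prop) (Q1 : Q 1) (Qm : ∀ a b, Q a → Q b → Q (a * b))
    {s t : Matrix (Fin n) (Fin n) R} (hs : sᵀ * G * s.map star = G) (sd : s.det = 1)
    (ht : tᵀ * G * t.map star = G) (td : t.det = 1) (Qs : Q s) (Qt : ¬ Q t)
    (hH : ∀ h ∈ H, ∀ a : Matrix (Fin n) (Fin n) R, aᵀ * G * a.map star = G → a.det = 1 →
      P * a.map M.φ = (h : Matrix (Fin n) (Fin n) F) * P → Q a ∧ a ≠ s) :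
    ¬ IsMaximalIn (GU n F q ⊓ specialLinear (Fin n) F) H := by
  classical
  haveI : Finite (Matrix (Fin n) (Fin n) F) := finite_matrix
  have hd : P.det ≠ 0 := by
    intro h0
    have := congrArg Matrix.det hP
    rw [Matrix.det_mul, Matrix.det_transpose, h0, zero_mul, M.det_map] at this
    exact hG (M.φ.injective (by rw [← this, map_zero]))
  obtain ⟨P, rfl⟩ : IsUnit P := (Matrix.isUnit_iff_isUnit_det _).2 (Ne.isUnit hd)
  have hP' : IsUnit ((P : Matrix (Fin n) (Fin n) F).map M.σ) :=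
    P.isUnit.map (M.σ.mapMatrix (m := Fin n))
  have hPt : IsUnit (P : Matrix (Fin n) (Fin n) F)ᵀ := (Matrix.isUnit_transpose _).2 P.isUnit
  let dn : GL (Fin n) F → Matrix (Fin n) (Fin n) R :=
    fun g => ((P⁻¹ * g * P : GL (Fin n) F) : Matrix (Fin n) (Fin n) F).map M.φ.symm
  have dn1 : ∀ g, (dn g).map M.φ = ((P⁻¹ * g * P : GL (Fin n) F) : Matrix (Fin n) (Fin n) F) := by
    intro g; ext i j; exact M.φ.apply_symm_apply _
  have dn2 : ∀ g, (P : Matrix (Fin n) (Fin n) F) * (dn g).map M.φ = g * P := by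
    intro g; rw [dn1, ← Units.val_mul, ← Units.val_mul]; congr 1; group
  have dnm : ∀ g h, dn (g * h) = dn g * dn h := by
    intro g h; apply M.map_inj
    rw [M.map_mul', dn1, dn1, dn1, ← Units.val_mul]; congr 1; group
  have dno : dn 1 = 1 := by
    apply M.map_inj; rw [dn1, M.map_one']; simp
  have key : ∀ g, g ∈ GU n F q ⊓ specialLinear (Fin n) F ↔
      (dn g)ᵀ * G * (dn g).map star = G ∧ (dn g).det = 1 := by
    intro g
    rw [Subgroup.mem_inf]
    refine and_congr ?_ ?_
    · rw [M.mem_GU]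
      have h1 := M.gram_eq hP (dn2 g)
      refine ⟨fun h => M.map_inj (by rw [h1, h, mul_one, hP]), fun h => ?_⟩
      rw [h, ← hP] at h1
      exact hPt.mul_left_cancel (hP'.mul_right_cancel (by rw [← h1, mul_one]))
    · rw [mem_specialLinear]
      have h1 := congrArg Matrix.det (dn2 g)
      rw [Matrix.det_mul, Matrix.det_mul, M.det_map, mul_comm, mul_left_inj' hd] at h1
      rw [← h1]
      exact M.φ.map_eq_one_iff
  have up : ∀ a : Matrix (Fin n) (Fin n) R, a.det = 1 → ∃ g, dn g = a := by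
    intro a ha
    obtain ⟨u, hu⟩ : IsUnit (a.map M.φ) :=
      (Matrix.isUnit_iff_isUnit_det _).2 (by rw [M.det_map, ha, map_one]; exact isUnit_one)
    refine ⟨P * u * P⁻¹, M.map_inj ?_⟩
    rw [dn1, ← hu]; congr 1; group
  let S : Submonoid (GL (Fin n) F) :=
    { carrier := {g | Q (dn g)}
      mul_mem' := fun {a b} ha hb => by
        change Q (dn (a * b)); rw [dnm]; exact Qm _ _ ha hb
      one_mem' := by change Q (dn 1); rwa [dno] }
  let S' : Subgroup (GL (Fin n) F) :=
    { S with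
      inv_mem' := fun {g} hg => (Submonoid.powers_le.2 hg : Submonoid.powers g ≤ S)
        (mem_powers_iff_mem_zpowers.2 (Subgroup.inv_mem _ (Subgroup.mem_zpowers g))) }
  intro hmax
  have hle : ∀ h ∈ H, Q (dn h) ∧ dn h ≠ s := fun h hh =>
    hH h hh _ ((key h).1 (hmax.1.le hh)).1 ((key h).1 (hmax.1.le hh)).2 (dn2 h)
  obtain ⟨gs, rfl⟩ := up s sd
  obtain ⟨gt, rfl⟩ := up t td
  rcases hmax.2 (S' ⊓ (GU n F q ⊓ specialLinear (Fin n) F))
    (le_inf (fun h hh => (hle h hh).1) hmax.1.le) inf_le_right with h | h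
  · exact (hle gs (h.le ⟨Qs, (key gs).2 ⟨hs, sd⟩⟩)).2 rfl
  · exact Qt (h.ge ((key gt).2 ⟨ht, td⟩)).1

/-- The certificate lemma for an invariant set of vectors and an orthonormal basis. -/
theorem not_max_vec [Finite F] {H : Subgroup (GL (Fin n) F)} {P : Matrix (Fin n) (Fin n) F}
    (hP : Pᵀ * P.map M.σ = 1) (X : (Fin n → R) → Prop)
    {s t : Matrix (Fin n) (Fin n) R} (hs : sᵀ * s.map star = 1) (sd : s.det = 1)
    (ht : tᵀ * t.map star = 1) (td : t.det = 1) (Xs : ∀ v, X v → X (s *ᵥ v)) {v₀ : Fin n → R}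
    (Xv : X v₀) (Xt : ¬ X (t *ᵥ v₀))
    (hH : ∀ h ∈ H, ∀ a : Matrix (Fin n) (Fin n) R, aᵀ * a.map star = 1 → a.det = 1 →
      P * a.map M.φ = (h : Matrix (Fin n) (Fin n) F) * P → (∀ v, X v → X (a *ᵥ v)) ∧ a ≠ s) :
    ¬ IsMaximalIn (GU n F q ⊓ specialLinear (Fin n) F) H := by
  haveI : Nontrivial R := M.φ.surjective.nontrivial
  refine M.not_max (G := 1) (hP.trans M.map_one'.symm) (by simp)
    (fun a => ∀ v, X v → X (a *ᵥ v)) (fun v hv => by rwa [Matrix.one_mulVec])
    (fun a b ha hb v hv => by rw [← Matrix.mulVec_mulVec]; exact ha _ (hb v hv))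
    (by rwa [mul_one]) sd (by rwa [mul_one]) td Xs (fun h => Xt (h _ Xv))
    fun h hh a ha => hH h hh a (by rwa [mul_one] at ha)

theorem gram_of (v : Fin n → Fin n → F) :
    (Matrix.of v)ᵀᵀ * (Matrix.of v)ᵀ.map M.σ = Matrix.of fun i j => hermForm n F q (v i) (v j) := by
  ext i j
  simp [Matrix.mul_apply, hermForm, M.hσ]

theorem entry_eq {v : Fin n → Fin n → F} {G a : Matrix (Fin n) (Fin n) R}
    {g : Matrix (Fin n) (Fin n) F} (hP : (Matrix.of v)ᵀᵀ * (Matrix.of v)ᵀ.map M.σ = G.map M.φ)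
    (h : (Matrix.of v)ᵀ * a.map M.φ = g * (Matrix.of v)ᵀ) (i j : Fin n) :
    M.φ ((aᵀ * G) j i) = hermForm n F q (g *ᵥ v j) (v i) := by
  have h1 : (aᵀ * G).map M.φ = (g * (Matrix.of v)ᵀ)ᵀ * (Matrix.of v)ᵀ.map M.σ := by
    rw [← h, M.map_mul', ← hP, Matrix.transpose_mul, Matrix.transpose_map, mul_assoc]
  have h2 := congrFun (congrFun h1 j) i
  rw [Matrix.map_apply] at h2
  rw [h2]
  simp [Matrix.mul_apply, hermForm, M.hσ, Matrix.mulVec, dotProduct, mul_comm (v j _)]

end Mdl

end H10.Asch
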