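import Cfsg.Agent.Lib.Asch.Cert

/-!
Stabilisers of orthogonal frames in `SU_3(5)`, `SU_4(3)`, `SU_6(2)` and of pairs of totally
isotropic planes in `SU_4(2)`, `SU_4(3)` are not maximal.
-/

set_option autoImplicit false

namespace H10.Asch

open Matrix Cfsg Cfsg.Geo

variable {R : Type} [CommRing R] [StarRing R] {F : Type*} [Field F] {q n : ℕ}

theorem mulVec_mem_of_map {ι : Type} [Fintype ι] [DecidableEq ι] {W U : Submodule F (ι → F)}
    {g : Matrix ι ι F} (h : W.map (Matrix.toLin' g) = U) {v : ι → F} (hv : v ∈ W) : g *ᵥ v ∈ U :=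
  h ▸ Submodule.mem_map_of_mem (f := Matrix.toLin' g) hv

theorem Mdl.exists_frame (M : Mdl R F q) [Finite F] {D : Fin n → Submodule F (Fin n → F)}
    (hD : IsNondegenerateMDecomposition (hermForm n F q) 1 D) :
    ∃ v : Fin n → Fin n → F, (∀ i, v i ∈ D i) ∧
      (Matrix.of v)ᵀᵀ * (Matrix.of v)ᵀ.map M.σ = 1 := by
  have h : ∀ i, ∃ v ∈ D i, hermForm n F q v v = 1 := by
    intro i
    obtain ⟨w, hw0, hw⟩ := finrank_eq_one_iff'.1 (hD.decomp.finrank_eq i)
    obtain ⟨⟨x, hx, h1⟩, -⟩ := hD.nondegenerate i w w.2 fun h => hw0 (Subtype.ext h)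
    obtain ⟨c, hc⟩ := hw ⟨x, hx⟩
    obtain rfl : c • (w : Fin n → F) = x := congrArg Subtype.val hc
    rw [Mdl.herm_smul_left] at h1
    obtain ⟨μ, hμ⟩ := M.exists_norm (M.herm_symm _ _) (right_ne_zero_of_mul h1)
    exact ⟨μ • (w : Fin n → F), (D i).smul_mem _ w.2, by
      rw [Mdl.herm_smul_left, M.herm_smul_right, hμ]⟩
  choose v hv h1 using h
  refine ⟨v, hv, ?_⟩
  rw [M.gram_of]
  ext i j
  by_cases hij : i = j
  · subst hij; simp [h1]
  · simp [hij, hD.orthogonal i j hij _ (hv i) _ (hv j)]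

theorem det_of_perm {ι : Type} [Fintype ι] [DecidableEq ι] {a : Matrix ι ι R} {π : Equiv.Perm ι}
    (h : ∀ i j, i ≠ π j → a i j = 0) : a.det ^ 2 = (∏ j, a (π j) j) ^ 2 := by
  have h1 : a.submatrix π id = diagonal fun j => a (π j) j := by
    ext i j
    by_cases hij : i = j
    · subst hij; simp
    · simp [hij, h (π i) j (π.injective.ne hij)]
  have h2 := Matrix.det_permute π a
  rw [h1, Matrix.det_diagonal] at h2
  rw [h2, mul_pow]
  rcases Int.units_eq_one_or (Equiv.Perm.sign π) with h | h <;> simp [h]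

theorem mulVec_of_perm {ι : Type} [Fintype ι] [DecidableEq ι] {a : Matrix ι ι R}
    {π : Equiv.Perm ι} (h : ∀ i j, i ≠ π j → a i j = 0) (v : ι → R) (j : ι) :
    (a *ᵥ v) (π j) = a (π j) j * v j := by
  rw [Matrix.mulVec, dotProduct, Finset.sum_eq_single j _ (by simp)]
  intro k _ hk
  rw [h _ _ (π.injective.ne hk.symm), zero_mul]

theorem norm_of_perm {ι : Type} [Fintype ι] [DecidableEq ι] {a : Matrix ι ι R}
    {π : Equiv.Perm ι} (h : ∀ i j, i ≠ π j → a i j = 0) (ha : aᵀ * a.map star = 1) (j : ι) :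
    a (π j) j * star (a (π j) j) = 1 := by
  have := congrFun (congrFun ha j) j
  rw [Matrix.mul_apply, Finset.sum_eq_single (π j) _ (by simp)] at this
  · simpa using this
  · intro k _ hk
    simp [h k j hk]

/-- The invariant sets used for frames. -/
def XF {A : Type} [AddCommMonoid A] (g : R → A) (Ψ : R → A → R → Prop) (v : Fin n → R) : Prop :=
  Ψ (hf v v) (∑ i, g (v i * star (v i))) ((∏ i, v i) ^ 2)

instance decXF {A : Type} [AddCommMonoid A] (g : R → A) (Ψ : R → A → R → Prop)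
    [∀ a b c, Decidable (Ψ a b c)] (v : Fin n → R) : Decidable (XF g Ψ v) :=
  inferInstanceAs (Decidable (Ψ _ _ _))

theorem Mdl.frame_not_max (M : Mdl R F q) [Finite F] {D : Fin n → Submodule F (Fin n → F)}
    (hD : IsNondegenerateMDecomposition (hermForm n F q) 1 D) {A : Type} [AddCommMonoid A]
    (g : R → A) (Ψ : R → A → R → Prop) {s t : Matrix (Fin n) (Fin n) R}
    (hs : sᵀ * s.map star = 1) (sd : s.det = 1) (ht : tᵀ * t.map star = 1) (td : t.det = 1)
    (Xs : ∀ v, XF g Ψ v → XF g Ψ (s *ᵥ v)) {v₀ : Fin n → R} (Xv : XF g Ψ v₀)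
    (Xt : ¬ XF g Ψ (t *ᵥ v₀)) (hs' : ∃ i i' j, i ≠ i' ∧ s i j ≠ 0 ∧ s i' j ≠ 0)
    {H : Subgroup (GL (Fin n) F)} (hH : H ≤ decompositionStabilizer D) :
    ¬ IsMaximalIn (GU n F q ⊓ specialLinear (Fin n) F) H := by
  obtain ⟨v, hv, hP⟩ := M.exists_frame hD
  refine M.not_max_vec hP (XF g Ψ) hs sd ht td Xs Xv Xt fun h hh a ha hd e => ?_
  obtain ⟨π, hπ⟩ := hH hh
  have h0 : ∀ i j, i ≠ π j → a i j = 0 := by
    intro i j hij
    have := M.entry_eq (G := 1) (hP.trans M.map_one'.symm) e i j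
    rw [hD.orthogonal _ _ hij.symm _ (mulVec_mem_of_map (hπ j) (hv j)) _ (hv i), mul_one] at this
    exact M.φ.map_eq_zero_iff.1 this
  refine ⟨fun x hx => ?_, ?_⟩
  · have h1 : ∑ i, g ((a *ᵥ x) i * star ((a *ᵥ x) i)) = ∑ i, g (x i * star (x i)) := by
      rw [← Equiv.sum_comp π]
      refine Finset.sum_congr rfl fun j _ => ?_
      rw [mulVec_of_perm h0, star_mul', mul_mul_mul_comm, norm_of_perm h0 ha, one_mul]
    have h2 : (∏ i, (a *ᵥ x) i) ^ 2 = (∏ i, x i) ^ 2 := by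
      rw [← Equiv.prod_comp π]
      simp only [mulVec_of_perm h0]
      rw [Finset.prod_mul_distrib, mul_pow, ← det_of_perm h0, hd, one_pow, one_mul]
    rwa [XF, hf_mulVec ha, h1, h2]
  · rintro rfl
    obtain ⟨i, i', j, h1, h2, h3⟩ := hs'
    by_cases hi : i = π j
    · exact h3 (h0 _ _ (hi ▸ h1.symm))
    · exact h2 (h0 _ _ hi)

end H10.Asch
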