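import Cfsg.Agent.Lib.Asch.CertF
import Cfsg.Agent.Lib.Unitary.Order

/-!
Normalisers of adjoint-closed field extensions in small special unitary groups: normal forms and
certificates.
-/

set_option autoImplicit false

namespace H10.Asch

open Matrix Cfsg Cfsg.Geo

universe u

theorem exists_conj_of_not_sq_dvd {G : Type*} [Group G] [Finite G] {l : ℕ} (hl : l.Prime)
    (h : ¬ l ^ 2 ∣ Nat.card G) {x y : G} (hx : orderOf x = l) (hy : orderOf y = l) :
    ∃ g : G, (∃ j : ℕ, g * x * g⁻¹ = y ^ j) ∧ ∃ i : ℕ, y = (g * x * g⁻¹) ^ i := by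
  haveI := Fact.mk hl
  have hf : (Nat.card G).factorization l = 1 := by
    apply le_antisymm
    · by_contra h1
      exact h ((hl.pow_dvd_iff_le_factorization Nat.card_pos.ne').2 (by omega))
    · exact (hl.dvd_iff_one_le_factorization Nat.card_pos.ne').1 (hx ▸ orderOf_dvd_natCard x)
  let P : Sylow l G := Sylow.ofCard (Subgroup.zpowers x) (by rw [Nat.card_zpowers, hx, hf, pow_one])
  let Q : Sylow l G := Sylow.ofCard (Subgroup.zpowers y) (by rw [Nat.card_zpowers, hy, hf, pow_one])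
  obtain ⟨g, hg⟩ := MulAction.exists_smul_eq G P Q
  have h1 : Subgroup.zpowers (g * x * g⁻¹) = Subgroup.zpowers y := by
    have h2 := congrArg (fun S : Sylow l G => (S : Subgroup G)) hg
    simp only [Sylow.coe_subgroup_smul, P, Q, Sylow.coe_ofCard] at h2
    rw [← h2]
    exact (MonoidHom.map_zpowers (MulAut.conj g).toMonoidHom x).symm
  refine ⟨g, ?_, ?_⟩
  · obtain ⟨j, hj⟩ := mem_powers_iff_mem_zpowers.2 (h1.le (Subgroup.mem_zpowers _))
    exact ⟨j, hj.symm⟩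
  · obtain ⟨j, hj⟩ := mem_powers_iff_mem_zpowers.2 (h1.ge (Subgroup.mem_zpowers _))
    exact ⟨j, hj.symm⟩

section
variable {L : Type u} [Field L] (τ : L →+* L) (y b : L)

theorem fix_three (h : y ^ 3 = 1) (hy : τ y = y) (hb : b ^ 2 + b + (1 : ℕ) = 0) (hτ : τ b ≠ b) :
    y = 1 := by
  by_contra h1
  have hs : 1 + y + y ^ 2 = 0 :=
    mul_left_cancel₀ (sub_ne_zero.2 h1) (by linear_combination h)
  have : (b - y) * (b - (-1 - y)) = 0 := by push_cast at hb; linear_combination hb - hs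
  rcases mul_eq_zero.1 this with h | h <;> apply hτ <;> rw [sub_eq_zero.1 h] <;> simp [hy]

theorem fix_nine (h : y ^ 9 = 1) (hy : τ y = y) (hb : b ^ 2 + b + (1 : ℕ) = 0) (hτ : τ b ≠ b) :
    y = 1 :=
  fix_three τ y b (fix_three τ (y ^ 3) b (by rw [← pow_mul, h]) (by rw [map_pow, hy]) hb hτ) hy hb hτ

theorem fix_seven (h : y ^ 7 = 1) (hy : τ y = y) (hb : b ^ 2 + b + (2 : ℕ) = 0) (hτ : τ b ≠ b) :
    y = 1 := by
  by_contra h1
  have hs : 1 + y + y ^ 2 + y ^ 3 + y ^ 4 + y ^ 5 + y ^ 6 = 0 :=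
    mul_left_cancel₀ (sub_ne_zero.2 h1) (by linear_combination h)
  have : (b - (y + y ^ 2 + y ^ 4)) * (b - (-1 - (y + y ^ 2 + y ^ 4))) = 0 := by
    push_cast at hb; linear_combination hb - 2 * hs - y * h
  rcases mul_eq_zero.1 this with h | h <;> apply hτ <;> rw [sub_eq_zero.1 h] <;> simp [hy]

theorem fix_eleven (h : y ^ 11 = 1) (hy : τ y = y) (hb : b ^ 2 + b + (3 : ℕ) = 0) (hτ : τ b ≠ b) :
    y = 1 := by
  by_contra h1
  have hs : 1 + y + y ^ 2 + y ^ 3 + y ^ 4 + y ^ 5 + y ^ 6 + y ^ 7 + y ^ 8 + y ^ 9 + y ^ 10 = 0 :=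
    mul_left_cancel₀ (sub_ne_zero.2 h1) (by linear_combination h)
  have : (b - (y + y ^ 3 + y ^ 4 + y ^ 5 + y ^ 9)) *
      (b - (-1 - (y + y ^ 3 + y ^ 4 + y ^ 5 + y ^ 9))) = 0 := by
    push_cast at hb
    linear_combination hb - 3 * hs - (2 * y + 2 * y ^ 2 + 2 * y ^ 3 + y ^ 7) * h
  rcases mul_eq_zero.1 this with h | h <;> apply hτ <;> rw [sub_eq_zero.1 h] <;> simp [hy]

end

variable {R : Type} [CommRing R] [StarRing R] {F : Type u} [Field F] {q n : ℕ}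

namespace Mdl

variable (M : Mdl R F q)

theorem map_σσ {ι : Type*} (x : Matrix ι ι F) : (x.map M.σ).map M.σ = x := by
  ext i j; exact M.σσ _

theorem adj_mem {K : Subalgebra F (Matrix (Fin n) (Fin n) F)}
    (hK : IsAdjointClosedFor (hermForm n F q) K) {x : Matrix (Fin n) (Fin n) F} (hx : x ∈ K) :
    (x.map M.σ)ᵀ ∈ K := by
  obtain ⟨y, hy, h⟩ := hK x hx
  simp only [M.herm_eq, gform_mulVec_left, gform_mulVec_right, mul_one, one_mul] at h
  rw [← Matrix.transpose_map, gform_inj h, M.map_σσ]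
  exact hy

theorem exists_unitary [Fintype F] [NeZero n] {r k c : ℕ}
    {K : Subalgebra F (Matrix (Fin n) (Fin n) F)} (hK : IsFieldSubalgebra r K)
    (hadj : IsAdjointClosedFor (hermForm n F q) K) (hk : k ∣ Fintype.card F ^ r - 1) {a : R}
    (ha : a ^ 2 + a + c = 0) (hσ : star a ≠ a)
    (hL : ∀ {L : Type u} [Field L] (τ : L →+* L) (y b : L), y ^ k = 1 → τ y = y →
      b ^ 2 + b + c = 0 → τ b ≠ b → y = 1) :
    ∃ θ ∈ K, orderOf θ = k ∧ θᵀ * θ.map M.σ = 1 ∧ ∀ x ∈ K, x ^ k = 1 → ∃ j, x = θ ^ j := by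
  obtain ⟨θ, hθ, h1, h2⟩ := IsFieldSubalgebra.exists_orderOf hK hk
  refine ⟨θ, hθ, h1, ?_, h2⟩
  haveI : Finite (Matrix (Fin n) (Fin n) F) := finite_matrix
  letI : Field K := (isField_subalgebra hK.comm hK.inv).toField
  let τ : K →+* K :=
    { toFun := fun x => ⟨(x.1.map M.σ)ᵀ, M.adj_mem hadj x.2⟩
      map_one' := Subtype.ext (by simp)
      map_mul' := fun x y => Subtype.ext (by
        change ((x.1 * y.1).map M.σ)ᵀ = (x.1.map M.σ)ᵀ * (y.1.map M.σ)ᵀ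
        rw [hK.comm _ x.2 _ y.2, Matrix.map_mul, Matrix.transpose_mul])
      map_zero' := Subtype.ext (by simp)
      map_add' := fun x y => Subtype.ext (by
        change ((x.1 + y.1).map M.σ)ᵀ = (x.1.map M.σ)ᵀ + (y.1.map M.σ)ᵀ
        rw [Matrix.map_add _ (map_add _), Matrix.transpose_add]) }
  have hττ : ∀ x, τ (τ x) = x := fun x => Subtype.ext (by
    change (((x.1.map M.σ)ᵀ).map M.σ)ᵀ = x.1
    rw [Matrix.transpose_map, Matrix.transpose_transpose, M.map_σσ])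
  have hτa : ∀ x : F, τ (algebraMap F K x) = algebraMap F K (M.σ x) := fun x => Subtype.ext (by
    change ((algebraMap F (Matrix (Fin n) (Fin n) F) x).map M.σ)ᵀ = algebraMap F _ (M.σ x)
    ext i j
    by_cases hij : i = j <;> simp [Matrix.algebraMap_matrix_apply, hij, eq_comm (a := j)])
  have hθk : (⟨θ, hθ⟩ : K) ^ k = 1 := Subtype.ext (by rw [← h1]; exact pow_orderOf_eq_one θ)
  have h3 := hL τ (⟨θ, hθ⟩ * τ ⟨θ, hθ⟩) (algebraMap F K (M.φ a))
    (by rw [mul_pow, ← map_pow, hθk, map_one, one_mul]) (by rw [map_mul, hττ, mul_comm])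
    (by
      have := congrArg (fun x => algebraMap F K (M.φ x)) ha
      simpa using this)
    (by
      rw [hτa, ← M.st]
      exact fun h => hσ (M.φ.injective ((algebraMap F K).injective h)))
  have h4 : θ * (θ.map M.σ)ᵀ = 1 := congrArg Subtype.val h3
  rw [mul_eq_one_comm] at h4
  have h5 := congrArg Matrix.transpose h4
  rwa [Matrix.transpose_mul, Matrix.transpose_transpose, Matrix.transpose_one] at h5

theorem isUnit_of_unitary {P : Matrix (Fin n) (Fin n) F} (hP : Pᵀ * P.map M.σ = 1) : IsUnit P :=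
  (Matrix.isUnit_transpose _).1 (IsUnit.of_mul_eq_one _ hP)

theorem exists_pow_of_nrm {k : ℕ} {K : Subalgebra F (Matrix (Fin n) (Fin n) F)}
    {P θ : Matrix (Fin n) (Fin n) F} (hP : Pᵀ * P.map M.σ = 1) {C : Matrix (Fin n) (Fin n) R}
    (hθ : θ ∈ K) (hk : θ ^ k = 1) (hp : ∀ x ∈ K, x ^ k = 1 → ∃ j, x = θ ^ j)
    (hC : P * C.map M.φ = θ * P) {h : GL (Fin n) F} (hh : h ∈ subalgebraNormalizer K)
    {a : Matrix (Fin n) (Fin n) R} (e : P * a.map M.φ = (h : Matrix (Fin n) (Fin n) F) * P) :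
    ∃ l : ℕ, C * a = a * C ^ l := by
  obtain ⟨l, hl⟩ := hp (cj h⁻¹ θ) ((Subgroup.inv_mem _ hh θ).1 hθ) (by rw [← map_pow, hk, map_one])
  have h1 : θ * h = h * θ ^ l := by
    rw [← hl, cj_apply, inv_inv, ← mul_assoc, ← mul_assoc, Units.mul_inv, one_mul]
  have h2 : P * (C ^ l).map M.φ = θ ^ l * P := by
    have : (C ^ l).map M.φ = C.map M.φ ^ l := map_pow (M.φ.mapMatrix (m := Fin n)) C l
    rw [this]
    exact (SemiconjBy.pow_right hC l).eq
  refine ⟨l, M.map_inj ((M.isUnit_of_unitary hP).mul_left_cancel ?_)⟩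
  rw [M.map_mul', M.map_mul', ← mul_assoc, hC, mul_assoc, e, ← mul_assoc, h1, mul_assoc, ← h2,
    ← mul_assoc, ← e, mul_assoc]

theorem exists_GU {C : Matrix (Fin n) (Fin n) F} (hC : Cᵀ * C.map M.σ = 1) :
    ∃ g : GU n F q, ((g : GL (Fin n) F) : Matrix (Fin n) (Fin n) F) = C := by
  obtain ⟨u, rfl⟩ := M.isUnit_of_unitary hC
  exact ⟨⟨u, M.mem_GU.2 hC⟩, rfl⟩

theorem map_unitary {C : Matrix (Fin n) (Fin n) R} (hC : Cᵀ * C.map star = 1) :
    (C.map M.φ)ᵀ * (C.map M.φ).map M.σ = 1 := by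
  rw [← M.map_star, ← Matrix.transpose_map, ← M.map_mul', hC, M.map_one']

include M in
theorem field_not_max [Fintype F] [NeZero n] {r l c : ℕ} [NeZero l] (hl : l.Prime)
    {K : Subalgebra F (Matrix (Fin n) (Fin n) F)} (hK : IsFieldSubalgebra r K)
    (hadj : IsAdjointClosedFor (hermForm n F q) K) (hk : l ∣ Fintype.card F ^ r - 1) {b : R}
    (hb : b ^ 2 + b + c = 0) (hσ : star b ≠ b)
    (hL : ∀ {L : Type u} [Field L] (τ : L →+* L) (y b : L), y ^ l = 1 → τ y = y →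
      b ^ 2 + b + c = 0 → τ b ≠ b → y = 1) (hcard : ¬ l ^ 2 ∣ Nat.card (GU n F q))
    {C : Matrix (Fin n) (Fin n) R} (hC : Cᵀ * C.map star = 1) (hCl : C ^ l = 1) (hC1 : C ≠ 1)
    (J : Fin l → Prop) (hJ : ∀ i j : Fin l, (C ^ i.val).trace = C.trace → J j → J (i * j))
    (Ψ : Matrix (Fin n) (Fin n) R → (Fin n → R) → Prop)
    (hΨ : ∀ a A A' v, aᵀ * a.map star = 1 → a.det = 1 → A * a = a * A' → Ψ A' v → Ψ A (a *ᵥ v))
    {s t : Matrix (Fin n) (Fin n) R} (hs : sᵀ * s.map star = 1) (sd : s.det = 1)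
    (ht : tᵀ * t.map star = 1) (td : t.det = 1)
    (Xs : ∀ v, (∀ j : Fin l, J j → Ψ (C ^ j.val) v) → ∀ j : Fin l, J j → Ψ (C ^ j.val) (s *ᵥ v))
    {v₀ : Fin n → R} (Xv : ∀ j : Fin l, J j → Ψ (C ^ j.val) v₀)
    (Xt : ¬ ∀ j : Fin l, J j → Ψ (C ^ j.val) (t *ᵥ v₀))
    (hs' : ∀ i : Fin l, C * s ≠ s * C ^ i.val) {H : Subgroup (GL (Fin n) F)}
    (hH : H ≤ subalgebraNormalizer K) : ¬ IsMaximalIn (GU n F q ⊓ specialLinear (Fin n) F) H := by
  haveI := Fact.mk hl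
  haveI : Finite (Matrix (Fin n) (Fin n) F) := finite_matrix
  obtain ⟨θ, hθ, h1, h2, h3⟩ := M.exists_unitary hK hadj hk hb hσ hL
  obtain ⟨y, rfl⟩ := M.exists_GU h2
  obtain ⟨x, hx⟩ := M.exists_GU (M.map_unitary hC)
  have ho : ∀ z : GU n F q, orderOf ((z : GL (Fin n) F) : Matrix (Fin n) (Fin n) F) = orderOf z :=
    fun z => by rw [orderOf_units, Subgroup.orderOf_coe]
  have hxo : orderOf x = l := by
    rw [← ho, hx]
    refine orderOf_eq_prime ?_ fun h => hC1 (M.map_inj (h.trans M.map_one'.symm))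
    rw [← M.map_one', ← hCl]
    exact (map_pow (M.φ.mapMatrix (m := Fin n)) C l).symm
  obtain ⟨g, ⟨j, hj⟩, i, hi⟩ := exists_conj_of_not_sq_dvd hl hcard hxo ((ho y).symm.trans h1)
  have hP := M.mem_GU.1 g.2
  have hc : ∀ (z : GU n F q) (m : ℕ), (((z ^ m : GU n F q) : GL (Fin n) F) :
      Matrix (Fin n) (Fin n) F) = ((z : GL (Fin n) F) : Matrix (Fin n) (Fin n) F) ^ m :=
    fun z m => by simp
  refine M.not_max_vec hP (fun v => ∀ j : Fin l, J j → Ψ (C ^ j.val) v) hs sd ht td Xs Xv Xt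
    fun h hh a ha hd e => ?_
  obtain ⟨m, hm⟩ := M.exists_pow_of_nrm (k := l) (C := C) hP
    (θ := ((g * x * g⁻¹ : GU n F q) : GL (Fin n) F)) (by rw [hj, hc]; exact K.pow_mem hθ j)
    (by rw [hj, hc, ← pow_mul, mul_comm, pow_mul, ← h1, pow_orderOf_eq_one, one_pow])
    (fun z hz hz' => by
      obtain ⟨m, rfl⟩ := h3 z hz hz'
      exact ⟨i * m, by rw [pow_mul, ← hc _ i, ← hi]⟩)
    (by rw [← hx, ← Units.val_mul, ← Units.val_mul]; simp) (hH hh) e
  rw [pow_eq_pow_mod m hCl] at hm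
  set m' : Fin l := ⟨m % l, Nat.mod_lt _ hl.pos⟩
  change C * a = a * C ^ m'.val at hm
  refine ⟨fun v hv j hj => hΨ a _ (C ^ (m' * j).val) v ha hd ?_ (hv _ (hJ _ _ ?_ hj)),
    fun h => hs' m' (h ▸ hm)⟩
  · rw [Fin.val_mul, ← pow_eq_pow_mod _ hCl, pow_mul]
    exact (SemiconjBy.pow_right hm.symm j.val).eq.symm
  · have h5 := congrArg Matrix.transpose ha
    rw [Matrix.transpose_mul, Matrix.transpose_transpose, Matrix.transpose_one] at h5
    rw [← one_mul (C ^ _), ← h5, mul_assoc, ← hm, Matrix.trace_mul_comm, mul_assoc,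
      mul_eq_one_comm.1 h5, mul_one]

end Mdl

/-- The determinant of `v, A v, A² v`. -/
def dA (A : Matrix (Fin 3) (Fin 3) R) (v : Fin 3 → R) : R :=
  v ⬝ᵥ crossProduct (A *ᵥ v) (A *ᵥ (A *ᵥ v))

omit [StarRing R] in
theorem triple_mulVec (a : Matrix (Fin 3) (Fin 3) R) (u v w : Fin 3 → R) :
    (a *ᵥ u) ⬝ᵥ crossProduct (a *ᵥ v) (a *ᵥ w) = a.det * (u ⬝ᵥ crossProduct v w) := by
  simp [Matrix.mulVec, dotProduct, Fin.sum_univ_three, cross_apply, Matrix.det_fin_three]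
  ring

omit [StarRing R] in
theorem dA_mulVec {a A A' : Matrix (Fin 3) (Fin 3) R} {c : R} (ha : a.det = 1) (hc : c ^ 3 = 1)
    (h : A * a = c • (a * A')) (v : Fin 3 → R) : dA A (a *ᵥ v) = dA A' v := by
  have h1 : ∀ w, A *ᵥ (a *ᵥ w) = a *ᵥ (c • (A' *ᵥ w)) := fun w => by
    rw [Matrix.mulVec_mulVec, h, Matrix.smul_mulVec, Matrix.mulVec_smul, Matrix.mulVec_mulVec]
  rw [dA, dA, h1, h1, triple_mulVec, ha, one_mul, Matrix.mulVec_smul]
  simp only [map_smul, LinearMap.smul_apply, dotProduct_smul, smul_eq_mul]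
  linear_combination (v ⬝ᵥ crossProduct (A' *ᵥ v) (A' *ᵥ (A' *ᵥ v))) * hc

theorem hf_semiconj {ι : Type} [Fintype ι] [DecidableEq ι] {a A A' : Matrix ι ι R}
    (ha : aᵀ * a.map star = 1) (h : A * a = a * A') (v : ι → R) :
    hf (A *ᵥ (a *ᵥ v)) (a *ᵥ v) = hf (A' *ᵥ v) v := by
  rw [Matrix.mulVec_mulVec, h, ← Matrix.mulVec_mulVec, hf_mulVec ha]

end H10.Asch
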