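import Cfsg.Agent.Lib.Asch.CertK

/-!
Orthogonal subfield subgroups of `SU_3(q)`: normal form and certificates for `q = 3, 5`.
-/

set_option autoImplicit false

namespace H10.Asch

open Matrix Cfsg Cfsg.Geo

variable {R : Type} [CommRing R] [StarRing R] {F : Type*} [Field F] {q : ℕ}

theorem Mdl.exists_orth (M : Mdl R F q) [Fintype F] (hF : Fintype.card F = q ^ 2)
    {F₀ : Subfield F} (h0 : Fintype.card F = Nat.card F₀ ^ 2) {P : GL (Fin 3) F}
    (hP : IsFormRationalStructure (hermForm 3 F q) F₀ 1 P) (h2 : (2 : R) ≠ 0)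
    (hsq : ∀ x : R, star x = x → x * x ≠ 2) :
    ∃ P' : Matrix (Fin 3) (Fin 3) F, P'ᵀ * P'.map M.σ = 1 ∧ ∀ g ∈ subfieldSubgroup F₀ P,
      ∀ a : Matrix (Fin 3) (Fin 3) R, P' * a.map M.φ = (g : Matrix (Fin 3) (Fin 3) F) * P' →
        ∃ u : R, ∀ i j, star (a i j) = u * a i j := by
  classical
  have hq : Nat.card F₀ = q := Nat.pow_left_injective two_ne_zero (h0.symm.trans hF)
  have hfix : ∀ x : F₀, M.σ x = x := fun x => by
    letI := Fintype.ofFinite F₀
    rw [M.hσ, ← hq, Nat.card_eq_fintype_card]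
    exact congrArg Subtype.val (FiniteField.pow_card x)
  have h2' : (2 : F) ≠ 0 := fun h => h2 (M.φ.injective (by rw [map_ofNat, h, map_zero]))
  let c : (Fin 3 → F₀) → Fin 3 → F := fun x => (P : Matrix (Fin 3) (Fin 3) F) *ᵥ fun i => (x i : F)
  have c_add : ∀ x y, c (x + y) = c x + c y := fun x y => by
    rw [← Matrix.mulVec_add]; rfl
  have c_smul : ∀ (a : F₀) x, c (a • x) = (a : F) • c x := fun a x => by
    rw [← Matrix.mulVec_smul]; rfl
  let B : LinearMap.BilinForm F₀ (Fin 3 → F₀) := LinearMap.mk₂ F₀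
    (fun x y => ⟨hermForm 3 F q (c x) (c y), by
      simpa using hP _ _ (fun i => (x i).2) fun i => (y i).2⟩)
    (fun x y z => Subtype.ext (by simp only [c_add, Mdl.herm_add_left]; rfl))
    (fun a x y => Subtype.ext (by simp only [c_smul, Mdl.herm_smul_left]; rfl))
    (fun x y z => Subtype.ext (by simp only [c_add, M.herm_add_right]; rfl))
    (fun a x y => Subtype.ext (by simp only [c_smul, M.herm_smul_right, hfix]; rfl))
  have hB : ∀ x y, (B x y : F) = hermForm 3 F q (c x) (c y) := fun _ _ => rfl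
  have hS : ∀ x y, B x y = B y x := fun x y => Subtype.ext (by
    rw [← hfix, hB, hB, M.herm_symm])
  have hsep : B.SeparatingLeft := by
    intro x hx
    have h1 : c x = 0 := by
      refine M.eq_zero_of_herm fun v => ?_
      have h3 : v = ∑ j, (((P⁻¹ : GL (Fin 3) F) : Matrix (Fin 3) (Fin 3) F) *ᵥ v) j •
          c (Pi.single j 1) := by
        have h4 : ∀ j, c (Pi.single j 1) = (P : Matrix (Fin 3) (Fin 3) F) *ᵥ Pi.single j 1 := by
          intro j; simp only [c]; congr 1; ext i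
          by_cases hij : i = j <;> simp [hij]
        simp only [h4, ← Matrix.mulVec_smul]
        rw [← Matrix.mulVec_sum, ← pi_eq_sum_univ', Matrix.mulVec_mulVec, Units.mul_inv,
          Matrix.one_mulVec]
      rw [h3, Fin.sum_univ_three]
      simp only [M.herm_add_right, M.herm_smul_right, ← hB, hx]
      simp
    by_contra h
    refine gl_mulVec_ne_zero P (v := fun i => (x i : F)) (fun h' => h ?_) h1
    ext i
    exact congrFun h' i
  obtain ⟨b, b1, b2, b3⟩ := H28.exists_basis_one_or_nonsquare (F := F₀) (n := 2)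
    (fun h => h2' (congrArg Subtype.val h)) B hS hsep (by simp) 2 (by
      rintro ⟨x, hx⟩
      obtain ⟨y, hy⟩ := M.φ.surjective x
      refine hsq y (M.φ.injective (by rw [M.st, hy, hfix])) (M.φ.injective ?_)
      rw [map_mul, hy, map_ofNat]
      exact (congrArg Subtype.val hx).symm)
  have hw : ∃ (w : Fin 3 → Fin 3 → F₀) (d : F₀), d ≠ 0 ∧ ∀ i j, B (w i) (w j) =
      if i = j then d else 0 := by
    have e0 := b2 0 (by decide)
    have e1 := b2 1 (by decide)
    have e01 := b1 0 1 (by decide)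
    have e02 := b1 0 2 (by decide)
    have e10 := b1 1 0 (by decide)
    have e12 := b1 1 2 (by decide)
    have e20 := b1 2 0 (by decide)
    have e21 := b1 2 1 (by decide)
    rcases b3 with h | h <;> change B (b 2) (b 2) = _ at h
    · refine ⟨b, 1, one_ne_zero, fun i j => ?_⟩
      fin_cases i <;> fin_cases j <;> simp [e0, e1, e01, e02, e10, e12, e20, e21, h]
    · refine ⟨![b 0 + b 1, b 0 - b 1, b 2], 2, fun h => h2' (congrArg Subtype.val h), fun i j => ?_⟩
      fin_cases i <;> fin_cases j <;> simp [e0, e1, e01, e02, e10, e12, e20, e21, h] <;> norm_num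
  obtain ⟨w, d, hd, hw⟩ := hw
  obtain ⟨μ, hμ⟩ := M.exists_norm (hfix d) fun h => hd (Subtype.ext h)
  have hG : (Matrix.of fun i => μ • c (w i))ᵀᵀ * (Matrix.of fun i => μ • c (w i))ᵀ.map M.σ = 1 := by
    rw [M.gram_of]
    ext i j
    rw [Matrix.of_apply, Mdl.herm_smul_left, M.herm_smul_right, ← hB, hw]
    by_cases hij : i = j <;> simp [hij, hμ, Matrix.one_apply]
  refine ⟨_, hG, fun g hg a e => ?_⟩
  obtain ⟨ν, hν, hg⟩ := mem_subfieldSubgroup_iff.1 hg
  let W : Matrix (Fin 3) (Fin 3) F := Matrix.of fun i j => (w j i : F)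
  have hW : (Matrix.of fun i => μ • c (w i))ᵀ = μ • ((P : Matrix (Fin 3) (Fin 3) F) * W) := by
    ext i j; simp [c, W, Matrix.mul_apply, Matrix.mulVec, dotProduct]
  have hu := M.isUnit_of_unitary hG
  rw [hW] at e hu
  have hμ0 : μ ≠ 0 := left_ne_zero_of_mul_eq_one hμ
  have hWu : IsUnit W := by
    rw [← mul_smul_comm, ← mul_one W, ← mul_smul_comm, ← mul_assoc, Matrix.isUnit_iff_isUnit_det,
      Matrix.det_mul, Matrix.det_mul] at hu
    exact (Matrix.isUnit_iff_isUnit_det _).2 (isUnit_of_mul_isUnit_right (isUnit_of_mul_isUnit_left hu))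
  have hWσ : W.map M.σ = W := by ext i j; exact hfix _
  have e1 : W * (ν • a.map M.φ) = (ν • cj P⁻¹ (g : Matrix (Fin 3) (Fin 3) F)) * W := by
    rw [smul_mul_assoc, mul_smul_comm] at e
    have e2 := smul_right_injective _ hμ0 e
    rw [mul_smul_comm, smul_mul_assoc, cj_apply, inv_inv, mul_assoc, mul_assoc, ← e2, ← mul_assoc,
      ← mul_assoc, Units.inv_mul, one_mul]
  have e3 : (ν • cj P⁻¹ (g : Matrix (Fin 3) (Fin 3) F)).map M.σ =
      ν • cj P⁻¹ (g : Matrix (Fin 3) (Fin 3) F) := by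
    ext i j; exact hfix ⟨_, hg i j⟩
  have e4 := congrArg (fun x => x.map M.σ) e1
  simp only [Matrix.map_mul, hWσ, e3] at e4
  have e5 := hWu.mul_left_cancel (e4.trans e1.symm)
  refine ⟨M.φ.symm (ν / M.σ ν), fun i j => M.φ.injective ?_⟩
  have e6 := congrFun (congrFun e5 i) j
  simp only [Matrix.map_apply, Matrix.smul_apply, smul_eq_mul, map_mul] at e6
  have hν' : M.σ ν ≠ 0 := (map_ne_zero _).2 hν
  rw [M.st, map_mul, RingEquiv.apply_symm_apply, div_mul_eq_mul_div, ← e6]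
  field_simp

/-- The invariant sets used for orthogonal subfield groups. -/
def XO (T₁ T₂ : List R) (v : Fin 3 → R) : Prop :=
  hf v v = 1 ∧ ((v ⬝ᵥ v) ^ 3 ∈ T₁ ∨
    ((v ⬝ᵥ v) ^ 3 ∈ T₂ ∧ ∀ i j, v i * star (v j) = v j * star (v i)))

instance decXO [DecidableEq R] (T₁ T₂ : List R) (v : Fin 3 → R) : Decidable (XO T₁ T₂ v) :=
  inferInstanceAs (Decidable (_ ∧ _))

theorem Mdl.orth_not_max (M : Mdl R F q) [Fintype F] (hF : Fintype.card F = q ^ 2)
    {F₀ : Subfield F} (h0 : Fintype.card F = Nat.card F₀ ^ 2) {P : GL (Fin 3) F}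
    (hP : IsFormRationalStructure (hermForm 3 F q) F₀ 1 P) (h2 : (2 : R) ≠ 0)
    (hsq : ∀ x : R, star x = x → x * x ≠ 2) (T₁ T₂ : List R) {s t : Matrix (Fin 3) (Fin 3) R}
    (hs : sᵀ * s.map star = 1) (sd : s.det = 1) (ht : tᵀ * t.map star = 1) (td : t.det = 1)
    (Xs : ∀ v, XO T₁ T₂ v → XO T₁ T₂ (s *ᵥ v)) {v₀ : Fin 3 → R} (Xv : XO T₁ T₂ v₀)
    (Xt : ¬ XO T₁ T₂ (t *ᵥ v₀)) (hs' : ¬ ∃ u : R, ∀ i j, star (s i j) = u * s i j)
    {H : Subgroup (GL (Fin 3) F)} (hH : H ≤ subfieldSubgroup F₀ P) :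
    ¬ IsMaximalIn (GU 3 F q ⊓ specialLinear (Fin 3) F) H := by
  obtain ⟨P', hP', h⟩ := M.exists_orth hF h0 hP h2 hsq
  refine M.not_max_vec hP' (XO T₁ T₂) hs sd ht td Xs Xv Xt fun g hg a ha hd e => ?_
  obtain ⟨u, hu⟩ := h g (hH hg) a e
  refine ⟨fun v hv => ?_, fun h => hs' ⟨u, h ▸ hu⟩⟩
  have h1 : a.map star = u • a := by ext i j; exact hu i j
  have h3 : u ^ 3 = 1 := by
    have := congrArg Matrix.det ha
    rwa [h1, Matrix.det_mul, Matrix.det_transpose, Matrix.det_smul, hd, one_mul, mul_one,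
      Matrix.det_one, Fintype.card_fin] at this
  have h4 : ((a *ᵥ v) ⬝ᵥ (a *ᵥ v)) ^ 3 = (v ⬝ᵥ v) ^ 3 := by
    have : u * ((a *ᵥ v) ⬝ᵥ (a *ᵥ v)) = v ⬝ᵥ v := by
      rw [← smul_eq_mul, ← dotProduct_smul, ← Matrix.smul_mulVec, ← h1, Matrix.dotProduct_mulVec,
        Matrix.vecMul_mulVec, ha, Matrix.vecMul_one]
    rw [← this, mul_pow, h3, one_mul]
  rw [XO, hf_mulVec ha, h4]
  refine ⟨hv.1, hv.2.imp id fun h => ⟨h.1, fun i j => ?_⟩⟩
  simp only [Matrix.mulVec, dotProduct, Fin.sum_univ_three, star_add, star_mul', hu]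
  linear_combination (u * (a i 0 * a j 1 - a i 1 * a j 0)) * h.2 0 1 +
    (u * (a i 0 * a j 2 - a i 2 * a j 0)) * h.2 0 2 + (u * (a i 1 * a j 2 - a i 2 * a j 1)) * h.2 1 2

end H10.Asch
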