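import Cfsg.Agent.Lib.Asch.CertF

/-!
Stabilisers of pairs of totally isotropic planes in `SU_4(2)`, `SU_4(3)` are not maximal: they
preserve a symplectic form up to scalars.
-/

set_option autoImplicit false

namespace H10.Asch

open Matrix Cfsg Cfsg.Geo

variable {R : Type} [CommRing R] [StarRing R] {F : Type*} [Field F] {q n : ℕ}

theorem Mdl.exists_pair (M : Mdl R F q) {D : Fin 2 → Submodule F (Fin n → F)}
    (hD : IsMDecomposition 2 D) (hts : ∀ i, IsTotallySingularFor (hermForm n F q) (D i)) :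
    ∃ e₀ ∈ D 0, ∃ e₁ ∈ D 0, ∃ f₀ ∈ D 1, ∃ f₁ ∈ D 1, hermForm n F q f₀ e₀ = 1 ∧
      hermForm n F q f₀ e₁ = 0 ∧ hermForm n F q f₁ e₀ = 0 ∧ hermForm n F q f₁ e₁ = 1 := by
  let b := Module.finBasisOfFinrankEq F (D 0) (hD.finrank_eq 0)
  let L : D 1 →ₗ[F] (Fin 2 → F) :=
    { toFun := fun w i => hermForm n F q w (b i)
      map_add' := fun x y => funext fun i => Mdl.herm_add_left _ _ _
      map_smul' := fun c x => funext fun i => Mdl.herm_smul_left _ _ _ }
  have hinj : Function.Injective L := by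
    refine (injective_iff_map_eq_zero L).2 fun w hw => Subtype.ext (M.eq_zero_of_herm fun v => ?_)
    have hv : v ∈ D 0 ⊔ D 1 := by
      have h := hD.iSup_eq_top
      rw [← iSup_univ, ← Finset.coe_univ, show (Finset.univ : Finset (Fin 2)) = {0, 1} from rfl] at h
      simp only [Finset.coe_insert, Finset.coe_singleton, iSup_insert, iSup_singleton] at h
      rw [h]; trivial
    obtain ⟨x, hx, y, hy, rfl⟩ := Submodule.mem_sup.1 hv
    rw [M.herm_add_right, hts 1 _ w.2 _ hy, add_zero]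
    have h1 := congrArg Subtype.val (b.sum_repr ⟨x, hx⟩)
    rw [Fin.sum_univ_two] at h1
    change _ + _ = x at h1
    have h2 : hermForm n F q w (b 0) = 0 := congrFun hw 0
    have h3 : hermForm n F q w (b 1) = 0 := congrFun hw 1
    rw [← h1, M.herm_add_right, Submodule.coe_smul, Submodule.coe_smul, M.herm_smul_right,
      M.herm_smul_right, h2, h3, mul_zero, mul_zero, add_zero]
  have hs := (LinearMap.injective_iff_surjective_of_finrank_eq_finrank
    (by rw [hD.finrank_eq 1]; simp)).1 hinj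
  obtain ⟨f₀, h0⟩ := hs ![1, 0]
  obtain ⟨f₁, h1⟩ := hs ![0, 1]
  exact ⟨b 0, (b 0).2, b 1, (b 1).2, f₀, f₀.2, f₁, f₁.2, congrFun h0 0, congrFun h0 1,
    congrFun h1 0, congrFun h1 1⟩

/-- Gram matrix of two hyperbolic pairs. -/
def gP (R : Type) [CommRing R] : Matrix (Fin 4) (Fin 4) R :=
  !![0, 0, 1, 0; 0, 0, 0, 1; 1, 0, 0, 0; 0, 1, 0, 0]

/-- The alternating form fixed up to scalars. -/
def bP (R : Type) [CommRing R] : Matrix (Fin 4) (Fin 4) R :=
  !![0, 1, 0, 0; -1, 0, 0, 0; 0, 0, 0, 1; 0, 0, -1, 0]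

omit [StarRing R] in
theorem sim_mul {ι : Type} [Fintype ι] {B a b : Matrix ι ι R} (ha : ∃ c : R, aᵀ * B * a = c • B)
    (hb : ∃ c : R, bᵀ * B * b = c • B) : ∃ c : R, (a * b)ᵀ * B * (a * b) = c • B := by
  obtain ⟨c, hc⟩ := ha
  obtain ⟨d, hd⟩ := hb
  refine ⟨c * d, ?_⟩
  rw [Matrix.transpose_mul, mul_smul, ← hd, ← smul_mul_assoc, ← mul_smul_comm, ← hc]
  simp only [mul_assoc]

theorem pair_diag (hR : ∀ x y : R, x * star y = 1 → x * y = 1 → x = y) (a b c d a' b' c' d' : R)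
    {m : Matrix (Fin 4) (Fin 4) R} (hm : m = !![a, b, 0, 0; c, d, 0, 0; 0, 0, a', b'; 0, 0, c', d'])
    (h : mᵀ * gP R * m.map star = gP R) (hd : m.det = 1) : ∃ x : R, mᵀ * bP R * m = x • bP R := by
  subst hm
  have h1 := congrFun (congrFun h 0) 2
  have h2 := congrFun (congrFun h 0) 3
  have h3 := congrFun (congrFun h 1) 2
  have h4 := congrFun (congrFun h 1) 3
  simp [Matrix.mul_apply, Fin.sum_univ_four, gP] at h1 h2 h3 h4
  simp [Matrix.det_succ_row_zero, Fin.sum_univ_succ, Fin.succAbove] at hd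
  have e := hR (a * d - b * c) (a' * d' - b' * c') (by
    rw [star_sub, star_mul', star_mul']
    linear_combination (b * star b' + d * star d') * h1 + h4 - (b * star a' + d * star c') * h2)
    (by linear_combination hd)
  refine ⟨a * d - b * c, ?_⟩
  ext i j
  fin_cases i <;> fin_cases j <;> simp [Matrix.mul_apply, Fin.sum_univ_four, bP] <;>
    first | ring1 | linear_combination e | linear_combination -e

theorem pair_anti (hR : ∀ x y : R, x * star y = 1 → x * y = 1 → x = y) (a b c d a' b' c' d' : R)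
    {m : Matrix (Fin 4) (Fin 4) R} (hm : m = !![0, 0, a', b'; 0, 0, c', d'; a, b, 0, 0; c, d, 0, 0])
    (h : mᵀ * gP R * m.map star = gP R) (hd : m.det = 1) : ∃ x : R, mᵀ * bP R * m = x • bP R := by
  subst hm
  have h1 := congrFun (congrFun h 0) 2
  have h2 := congrFun (congrFun h 0) 3
  have h3 := congrFun (congrFun h 1) 2
  have h4 := congrFun (congrFun h 1) 3
  simp [Matrix.mul_apply, Fin.sum_univ_four, gP] at h1 h2 h3 h4
  simp [Matrix.det_succ_row_zero, Fin.sum_univ_succ, Fin.succAbove] at hd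
  have e := hR (a * d - b * c) (a' * d' - b' * c') (by
    rw [star_sub, star_mul', star_mul']
    linear_combination (b * star b' + d * star d') * h1 + h4 - (b * star a' + d * star c') * h2)
    (by linear_combination hd)
  refine ⟨a * d - b * c, ?_⟩
  ext i j
  fin_cases i <;> fin_cases j <;> simp [Matrix.mul_apply, Fin.sum_univ_four, bP] <;>
    first | ring1 | linear_combination e | linear_combination -e

theorem Mdl.pair_not_max (M : Mdl R F q) [Finite F] {D : Fin 2 → Submodule F (Fin 4 → F)}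
    (hD : IsMDecomposition 2 D) (hts : ∀ i, IsTotallySingularFor (hermForm 4 F q) (D i))
    (hR : ∀ x y : R, x * star y = 1 → x * y = 1 → x = y) {s t : Matrix (Fin 4) (Fin 4) R}
    (hs : sᵀ * gP R * s.map star = gP R) (sd : s.det = 1) (ht : tᵀ * gP R * t.map star = gP R)
    (td : t.det = 1) (Qs : ∃ x : R, sᵀ * bP R * s = x • bP R)
    (Qt : ¬ ∃ x : R, tᵀ * bP R * t = x • bP R) (s1 : s 0 0 ≠ 0) (s2 : s 0 3 ≠ 0)
    {H : Subgroup (GL (Fin 4) F)} (hH : H ≤ decompositionStabilizer D) :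
    ¬ IsMaximalIn (GU 4 F q ⊓ specialLinear (Fin 4) F) H := by
  haveI : Nontrivial R := M.φ.surjective.nontrivial
  obtain ⟨e₀, a0, e₁, a1, f₀, b0, f₁, b1, h1, h2, h3, h4⟩ := M.exists_pair hD hts
  have h1' := M.herm_symm f₀ e₀
  have h2' := M.herm_symm f₀ e₁
  have h3' := M.herm_symm f₁ e₀
  have h4' := M.herm_symm f₁ e₁
  rw [h1, map_one] at h1'
  rw [h2, map_zero] at h2'
  rw [h3, map_zero] at h3'
  rw [h4, map_one] at h4'
  have hP : (Matrix.of ![e₀, e₁, f₀, f₁])ᵀᵀ * (Matrix.of ![e₀, e₁, f₀, f₁])ᵀ.map M.σ =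
      (gP R).map M.φ := by
    rw [M.gram_of]
    ext i j
    fin_cases i <;> fin_cases j <;>
      simp [gP, h1, h2, h3, h4, ← h1', ← h2', ← h3', ← h4', hts 0 _ a0 _ a0, hts 0 _ a0 _ a1,
        hts 0 _ a1 _ a0, hts 0 _ a1 _ a1, hts 1 _ b0 _ b0, hts 1 _ b0 _ b1, hts 1 _ b1 _ b0,
        hts 1 _ b1 _ b1]
  refine M.not_max hP (by simp [gP, Matrix.det_succ_row_zero, Fin.sum_univ_succ, Fin.succAbove])
    (fun a => ∃ x : R, aᵀ * bP R * a = x • bP R) ⟨1, by simp⟩ (fun a b => sim_mul) hs sd ht td Qs Qt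
    fun h hh a ha hd e => ?_
  obtain ⟨π, hπ⟩ := hH hh
  have hv : ∀ j : Fin 4, (![e₀, e₁, f₀, f₁] : Fin 4 → Fin 4 → F) j ∈ D (![0, 0, 1, 1] j) := by
    intro j; fin_cases j <;> assumption
  have h0 : ∀ i j : Fin 4, π (![0, 0, 1, 1] j) = ![0, 0, 1, 1] i → a (i + 2) j = 0 := by
    intro i j hij
    have := M.entry_eq hP e i j
    rw [hts _ _ (hij ▸ mulVec_mem_of_map (hπ _) (hv j)) _ (hv i), M.φ.map_eq_zero_iff] at this
    fin_cases i <;> simpa [gP, Matrix.mul_apply, Fin.sum_univ_four] using this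
  have hπ' : ∀ π : Equiv.Perm (Fin 2), (π 0 = 0 ∧ π 1 = 1) ∨ (π 0 = 1 ∧ π 1 = 0) := by decide
  rcases hπ' π with ⟨p0, p1⟩ | ⟨p0, p1⟩
  · refine ⟨pair_diag hR (a 0 0) (a 0 1) (a 1 0) (a 1 1) (a 2 2) (a 2 3) (a 3 2) (a 3 3) ?_ ha hd,
      fun h => s2 (h ▸ h0 2 3 p1)⟩
    ext i j
    fin_cases i <;> fin_cases j
    exacts [rfl, rfl, h0 2 2 p1, h0 2 3 p1, rfl, rfl, h0 3 2 p1, h0 3 3 p1, h0 0 0 p0, h0 0 1 p0,
      rfl, rfl, h0 1 0 p0, h0 1 1 p0, rfl, rfl]
  · refine ⟨pair_anti hR (a 2 0) (a 2 1) (a 3 0) (a 3 1) (a 0 2) (a 0 3) (a 1 2) (a 1 3) ?_ ha hd,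
      fun h => s1 (h ▸ h0 2 0 p0)⟩
    ext i j
    fin_cases i <;> fin_cases j
    exacts [h0 2 0 p0, h0 2 1 p0, rfl, rfl, h0 3 0 p0, h0 3 1 p0, rfl, rfl, rfl, rfl, h0 0 2 p1,
      h0 0 3 p1, rfl, rfl, h0 1 2 p1, h0 1 3 p1]

open G4 in
theorem pair_four_two [Fintype F] (hF : Fintype.card F = 2 ^ 2)
    {D : Fin 2 → Submodule F (Fin 4 → F)} (hD : IsMDecomposition 2 D)
    (hts : ∀ i, IsTotallySingularFor (hermForm 4 F 2) (D i)) {H : Subgroup (GL (Fin 4) F)}
    (hH : H ≤ decompositionStabilizer D) :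
    ¬ IsMaximalIn (GU 4 F 2 ⊓ specialLinear (Fin 4) F) H := by
  obtain ⟨M⟩ := exists_mdl_two hF
  exact M.pair_not_max hD hts (by decide +kernel)
    (s := !![e 2, e 3, e 1, e 1; e 3, e 2, e 1, e 1; e 1, e 1, e 3, e 2; e 1, e 1, e 2, e 3])
    (t := !![e 1, e 0, e 0, e 0; e 0, e 1, e 0, e 0; e 0, e 0, e 1, e 0; e 0, e 1, e 0, e 1])
    (by decide +kernel) (by decide +kernel) (by decide +kernel) (by decide +kernel)
    (by decide +kernel) (by decide +kernel) (by decide +kernel) (by decide +kernel) hH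

open G9 in
theorem pair_four_three [Fintype F] (hF : Fintype.card F = 3 ^ 2)
    {D : Fin 2 → Submodule F (Fin 4 → F)} (hD : IsMDecomposition 2 D)
    (hts : ∀ i, IsTotallySingularFor (hermForm 4 F 3) (D i)) {H : Subgroup (GL (Fin 4) F)}
    (hH : H ≤ decompositionStabilizer D) :
    ¬ IsMaximalIn (GU 4 F 3 ⊓ specialLinear (Fin 4) F) H := by
  obtain ⟨M⟩ := exists_mdl_three hF
  exact M.pair_not_max hD hts (by decide +kernel)
    (s := !![e 5, e 8, e 3, e 3; e 4, e 6, e 3, e 3; e 6, e 3, e 3, e 5; e 3, e 6, e 7, e 8])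
    (t := !![e 1, e 0, e 0, e 0; e 0, e 1, e 0, e 0; e 0, e 0, e 1, e 0; e 0, e 3, e 0, e 1])
    (by decide +kernel) (by decide +kernel) (by decide +kernel) (by decide +kernel)
    (by decide +kernel) (by decide +kernel) (by decide +kernel) (by decide +kernel) hH

end H10.Asch
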