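import Cfsg.Agent.Lib.Asch.CertK

/-!
The normaliser `3^(1+2) : Q₈` in `SU_3(5)` lies in `3.M₁₀`.
-/

set_option autoImplicit false

namespace H10.Asch

open Matrix Cfsg Cfsg.Geo

variable {R : Type} [CommRing R] [StarRing R] {F : Type*} [Field F] {q n : ℕ}

namespace Mdl

variable (M : Mdl R F q)

/-- `a` is the matrix of `g` in the basis `P`. -/
def Rel (P : Matrix (Fin n) (Fin n) F) (a : Matrix (Fin n) (Fin n) R)
    (g : Matrix (Fin n) (Fin n) F) : Prop := P * a.map M.φ = g * P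

variable {M} {P g h : Matrix (Fin n) (Fin n) F} {a b : Matrix (Fin n) (Fin n) R}

theorem Rel.mul (h1 : M.Rel P a g) (h2 : M.Rel P b h) : M.Rel P (a * b) (g * h) := by
  rw [Rel, M.map_mul', ← mul_assoc, h1, mul_assoc, h2, mul_assoc]

theorem Rel.one : M.Rel P 1 1 := by rw [Rel, M.map_one', mul_one, one_mul]

theorem Rel.pow (h1 : M.Rel P a g) (k : ℕ) : M.Rel P (a ^ k) (g ^ k) := by
  induction k with
  | zero => rw [pow_zero, pow_zero]; exact Rel.one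
  | succ k ih => rw [pow_succ, pow_succ]; exact ih.mul h1

theorem Rel.smul (h1 : M.Rel P a g) (c : R) : M.Rel P (c • a) (M.φ c • g) := by
  have : (c • a).map M.φ = M.φ c • a.map M.φ := by ext i j; simp
  rw [Rel, this, mul_smul_comm, h1, smul_mul_assoc]

theorem Rel.add (h1 : M.Rel P a g) (h2 : M.Rel P b h) : M.Rel P (a + b) (g + h) := by
  rw [Rel, Matrix.map_add _ (map_add _), mul_add, h1, h2, add_mul]

theorem Rel.inj (hP : IsUnit P) (h1 : M.Rel P a g) (h2 : M.Rel P b g) : a = b :=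
  M.map_inj (hP.mul_left_cancel (h1.trans h2.symm))

theorem Rel.inj' (hP : IsUnit P) (h1 : M.Rel P a g) (h2 : M.Rel P a h) : g = h :=
  hP.mul_right_cancel (h1.symm.trans h2)

variable (M) in
theorem exists_rel (hP : IsUnit P) (g : Matrix (Fin n) (Fin n) F) : ∃ a, M.Rel P a g := by
  obtain ⟨P, rfl⟩ := hP
  refine ⟨(((P⁻¹ : (Matrix (Fin n) (Fin n) F)ˣ) : Matrix (Fin n) (Fin n) F) * g * P).map M.φ.symm, ?_⟩
  rw [Rel, Matrix.map_map, show M.φ ∘ M.φ.symm = id from M.φ.toEquiv.self_comp_symm, Matrix.map_id, ← mul_assoc, ← mul_assoc,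
    Units.mul_inv, one_mul]

end Mdl

/-- The cyclic permutation matrix. -/
def yR (R : Type) [CommRing R] : Matrix (Fin 3) (Fin 3) R := !![0, 0, 1; 1, 0, 0; 0, 1, 0]

/-- The diagonal matrix with the cube roots of unity. -/
def xR {R : Type} [CommRing R] (w : R) : Matrix (Fin 3) (Fin 3) R := !![1, 0, 0; 0, w, 0; 0, 0, w * w]

theorem Mdl.exists_heis (M : Mdl R F q) [Finite F] {w : R} (hw : w * w + w + 1 = 0) (hw1 : w ≠ 1)
    (h3 : (3 : R) ≠ 0) {x y : Matrix (Fin 3) (Fin 3) F} (hx : xᵀ * x.map M.σ = 1)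
    (hy : yᵀ * y.map M.σ = 1) (x3 : x * x * x = 1) (y3 : y * y * y = 1) (t1 : x.trace = 0)
    (t2 : (x * x).trace = 0) (hxy : x * y = M.φ w • (y * x)) :
    ∃ P : Matrix (Fin 3) (Fin 3) F, Pᵀ * P.map M.σ = 1 ∧ M.Rel P (xR w) x ∧ M.Rel P (yR R) y := by
  have hU : ∀ {z : Matrix (Fin 3) (Fin 3) F}, zᵀ * z.map M.σ = 1 → ∀ u v,
      hermForm 3 F q (z *ᵥ u) (z *ᵥ v) = hermForm 3 F q u v := fun hz u v => by
    rw [M.herm_eq, M.herm_eq, gform_mulVec, mul_one, hz]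
  have h3' : (3 : F) ≠ 0 := fun h => h3 (M.φ.injective (by rw [map_ofNat, h, map_zero]))
  have hω : M.φ w * M.φ w + M.φ w + 1 = 0 := by simpa using congrArg M.φ hw
  set ω := M.φ w with hωd
  have hS : 1 + x + x * x ≠ 0 := fun h => h3' (by
    simpa [t1, t2] using congrArg Matrix.trace h)
  obtain ⟨u, hu⟩ : ∃ u, (1 + x + x * x) *ᵥ u ≠ 0 := by
    by_contra! h
    exact hS (Matrix.toLin'.injective (LinearMap.ext fun u => by
      rw [Matrix.toLin'_apply, h, map_zero, LinearMap.zero_apply]))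
  set v := (1 + x + x * x) *ᵥ u
  have x0 : x *ᵥ v = v := by
    rw [Matrix.mulVec_mulVec, mul_add, mul_add, mul_one, ← mul_assoc, x3]; congr 1; abel
  have hc : ∀ z, x *ᵥ (y *ᵥ z) = ω • (y *ᵥ (x *ᵥ z)) := fun z => by
    rw [Matrix.mulVec_mulVec, hxy, Matrix.smul_mulVec, Matrix.mulVec_mulVec]
  have x1 : x *ᵥ (y *ᵥ v) = ω • (y *ᵥ v) := by rw [hc, x0]
  have x2 : x *ᵥ (y *ᵥ (y *ᵥ v)) = (ω * ω) • (y *ᵥ (y *ᵥ v)) := by
    rw [hc, x1, Matrix.mulVec_smul, smul_smul]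
  have y2 : ∀ z, y *ᵥ (y *ᵥ (y *ᵥ z)) = z := fun z => by
    rw [Matrix.mulVec_mulVec, Matrix.mulVec_mulVec, y3, Matrix.one_mulVec]
  have f01 : hermForm 3 F q v (y *ᵥ v) = 0 := by
    have := hU hx v (y *ᵥ v)
    rw [x0, x1, M.herm_smul_right] at this
    by_contra h
    have h1 : M.σ ω = M.σ 1 := by rw [map_one]; exact (mul_eq_right₀ h).1 this
    exact hw1 (M.φ.injective (by rw [map_one]; exact M.σ.injective h1))
  have f12 : hermForm 3 F q (y *ᵥ v) (y *ᵥ (y *ᵥ v)) = 0 := by rw [hU hy, f01]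
  have f20 : hermForm 3 F q (y *ᵥ (y *ᵥ v)) v = 0 := by rw [← f12, ← hU hy (y *ᵥ v), y2]
  have f10 : hermForm 3 F q (y *ᵥ v) v = 0 := by rw [← M.herm_symm, f01, map_zero]
  have f21 : hermForm 3 F q (y *ᵥ (y *ᵥ v)) (y *ᵥ v) = 0 := by rw [← M.herm_symm, f12, map_zero]
  have f02 : hermForm 3 F q v (y *ᵥ (y *ᵥ v)) = 0 := by rw [← M.herm_symm, f20, map_zero]
  have key : ∀ a b c : F, a • v + b • (y *ᵥ v) + c • (y *ᵥ (y *ᵥ v)) = 0 → a = 0 := by
    intro a b c h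
    have h1 := congrArg (fun z => x *ᵥ z) h
    have h2 := congrArg (fun z => x *ᵥ z) h1
    simp only [Matrix.mulVec_add, Matrix.mulVec_smul, x0, x1, x2, Matrix.mulVec_zero] at h1 h2
    have h4 : (3 * a) • v = 0 := by
      have e1 : (3 * a) • v = (a • v + b • (y *ᵥ v) + c • (y *ᵥ (y *ᵥ v))) +
          (a • v + b • ω • (y *ᵥ v) + c • (ω * ω) • (y *ᵥ (y *ᵥ v))) +
          (a • v + b • ω • ω • (y *ᵥ v) + c • (ω * ω) • (ω * ω) • (y *ᵥ (y *ᵥ v))) -
          (b * (ω * ω + ω + 1)) • (y *ᵥ v) -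
          (c * (ω * ω + ω + 1) * (ω * ω - ω + 1)) • (y *ᵥ (y *ᵥ v)) := by module
      rw [e1, h, h1, h2, hω]; simp
    exact (mul_eq_zero.1 ((smul_eq_zero.1 h4).resolve_right hu)).resolve_left h3'
  have f00 : hermForm 3 F q v v ≠ 0 := by
    intro h
    have hG := M.gram_of ![v, y *ᵥ v, y *ᵥ (y *ᵥ v)]
    have hd : (Matrix.of ![v, y *ᵥ v, y *ᵥ (y *ᵥ v)])ᵀ.det = 0 := by
      have h1 := congrArg Matrix.det hG
      rw [Matrix.det_mul, Matrix.det_transpose, ← RingHom.mapMatrix_apply, ← RingHom.map_det,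
        Matrix.det_eq_zero_of_row_eq_zero (A := Matrix.of fun i j => _) 0 (fun j => by
          fin_cases j <;> simp [-Matrix.mulVec_mulVec, h, f01, f02])] at h1
      rcases mul_eq_zero.1 h1 with h1 | h1
      · exact h1
      · exact (map_eq_zero _).1 h1
    obtain ⟨c, hc0, hc⟩ := Matrix.exists_mulVec_eq_zero_iff.2 hd
    have h1 : c 0 • v + c 1 • (y *ᵥ v) + c 2 • (y *ᵥ (y *ᵥ v)) = 0 := by
      rw [← hc]; ext i
      simp only [Matrix.mulVec, dotProduct, Fin.sum_univ_three (f := fun j => _ * c j)]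
      simp [mul_comm]
    have h2 := congrArg (fun z => y *ᵥ z) h1
    have h3 := congrArg (fun z => y *ᵥ z) h2
    simp only [Matrix.mulVec_add, Matrix.mulVec_smul, y2, Matrix.mulVec_zero] at h2 h3
    apply hc0
    ext i
    fin_cases i
    · exact key _ _ _ h1
    · exact key (c 1) (c 2) (c 0) (by rw [← h3]; abel)
    · exact key (c 2) (c 0) (c 1) (by rw [← h2]; abel)
  obtain ⟨μ, hμ⟩ := M.exists_norm (M.herm_symm v v) f00
  rw [mul_left_comm] at hμ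
  refine ⟨(Matrix.of ![μ • v, μ • (y *ᵥ v), μ • (y *ᵥ (y *ᵥ v))])ᵀ, ?_, ?_, ?_⟩
  · rw [M.gram_of]
    ext i j
    fin_cases i <;> fin_cases j <;>
      simp [-Matrix.mulVec_mulVec, Mdl.herm_smul_left, M.herm_smul_right, hU hy, hμ, f01, f02, f10,
        f12, f20, f21]
  · ext i j
    have e0 := congrFun x0 i
    have e1 := congrFun x1 i
    have e2 := congrFun x2 i
    generalize y *ᵥ (y *ᵥ v) = v₂ at *
    generalize y *ᵥ v = v₁ at *
    simp only [Matrix.mulVec, dotProduct, Fin.sum_univ_three, Pi.smul_apply, smul_eq_mul] at e0 e1 e2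
    fin_cases j <;> simp [Matrix.mul_apply, Fin.sum_univ_three, xR, ← hωd]
    · linear_combination -μ * e0
    · linear_combination -μ * e1
    · linear_combination -μ * e2
  · ext i j
    have e0 : (y *ᵥ v) i = (y *ᵥ v) i := rfl
    have e1 : (y *ᵥ (y *ᵥ v)) i = (y *ᵥ (y *ᵥ v)) i := rfl
    have e2 := congrFun (y2 v) i
    revert e0 e1 e2
    generalize hv₂ : y *ᵥ (y *ᵥ v) = v₂
    generalize hv₁ : y *ᵥ v = v₁ at hv₂ ⊢
    intro _ _ e2
    have e0 := congrFun hv₁ i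
    have e1 := congrFun hv₂ i
    simp only [Matrix.mulVec, dotProduct, Fin.sum_univ_three] at e0 e1 e2
    fin_cases j <;> simp [Matrix.mul_apply, Fin.sum_univ_three, yR]
    · linear_combination -μ * e0
    · linear_combination -μ * e1
    · linear_combination -μ * e2

omit [StarRing R] in
theorem scalar_of_comm_xy [IsDomain R] {w : R} (hw : w * w + w + 1 = 0) (hw1 : w ≠ 1)
    {m : Matrix (Fin 3) (Fin 3) R} (h1 : m * xR w = xR w * m) (h2 : m * yR R = yR R * m) :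
    ∃ c : R, m = c • 1 := by
  have hw0 : w ≠ 0 := by rintro rfl; simp at hw
  have hw2 : w * w - 1 ≠ 0 := fun h => hw1 (by linear_combination (w - 1) * hw - w * h)
  have hw3 : w - 1 ≠ 0 := sub_ne_zero.2 hw1
  have a01 := congrFun (congrFun h1 0) 1
  have a02 := congrFun (congrFun h1 0) 2
  have b00 := congrFun (congrFun h2 0) 0
  have b01 := congrFun (congrFun h2 0) 1
  have b02 := congrFun (congrFun h2 0) 2
  have b10 := congrFun (congrFun h2 1) 0
  have b11 := congrFun (congrFun h2 1) 1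
  have b12 := congrFun (congrFun h2 1) 2
  simp [Matrix.mul_apply, Fin.sum_univ_three, xR, yR] at a01 a02 b00 b01 b02 b10 b11 b12
  have z1 : m 0 1 = 0 := (mul_eq_zero.1 (show m 0 1 * (w - 1) = 0 by
    linear_combination a01)).resolve_right hw3
  have z2 : m 0 2 = 0 := (mul_eq_zero.1 (show m 0 2 * (w * w - 1) = 0 by
    linear_combination a02)).resolve_right hw2
  refine ⟨m 0 0, ?_⟩
  ext i j
  fin_cases i <;> fin_cases j <;> simp [z1, z2, ← b00, ← b01, ← b02, b10, b11, b12]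

/-- Representatives of `3^(1+2)` modulo scalars. -/
def aR {R : Type} [CommRing R] (w : R) (i j : Fin 3) : Matrix (Fin 3) (Fin 3) R :=
  xR w ^ i.val * yR R ^ j.val

theorem Mdl.heis_not_max (M : Mdl R F q) [Finite F] {w : R} (hw : w * w + w + 1 = 0) (hw1 : w ≠ 1)
    (h3 : (3 : R) ≠ 0) (hcube : ∀ u : R, u ^ 3 = 1 → u = 1 ∨ u = w ∨ u = w * w)
    (htab : ∀ u u' : R, u ^ 3 = 1 → u' ^ 3 = 1 → ∃ i j, aR w i j * xR w = u • (xR w * aR w i j) ∧
      aR w i j * yR R = u' • (yR R * aR w i j) ∧ aR w i j ^ 3 = 1)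
    {N : Subgroup (GL (Fin 3) F)} (hN : IsEA 3 N) (hU : N ≤ GU 3 F q) (hexp : ∀ x ∈ N, x ^ 3 = 1)
    (T : List R) {s t : Matrix (Fin 3) (Fin 3) R}
    (hs : sᵀ * s.map star = 1) (sd : s.det = 1) (ht : tᵀ * t.map star = 1) (td : t.det = 1)
    (Xs : ∀ v, (hf v v = 1 ∧ ∀ i j, dA (aR w i j) v ^ 2 ∈ T) →
      hf (s *ᵥ v) (s *ᵥ v) = 1 ∧ ∀ i j, dA (aR w i j) (s *ᵥ v) ^ 2 ∈ T)
    {v₀ : Fin 3 → R} (Xv : hf v₀ v₀ = 1 ∧ ∀ i j, dA (aR w i j) v₀ ^ 2 ∈ T)
    (Xt : ¬ (hf (t *ᵥ v₀) (t *ᵥ v₀) = 1 ∧ ∀ i j, dA (aR w i j) (t *ᵥ v₀) ^ 2 ∈ T))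
    (hs' : ∀ (c : R) i j, aR w 1 0 * s ≠ c • (s * aR w i j))
    {H : Subgroup (GL (Fin 3) F)} (hH : H ≤ subgroupNormalizer N) :
    ¬ IsMaximalIn (GU 3 F q ⊓ specialLinear (Fin 3) F) H := by
  haveI : IsDomain R := M.φ.toMulEquiv.isDomain F
  have hcomm : ∀ x ∈ N, ∀ y ∈ N, ∃ u : R, u ^ 3 = 1 ∧ (y : Matrix (Fin 3) (Fin 3) F) * x =
      M.φ u • ((x : Matrix (Fin 3) (Fin 3) F) * y) := fun x hx y hy => by
    obtain ⟨ζ, h1, h2⟩ := hN.exists_comm hx hy
    refine ⟨M.φ.symm ζ, M.φ.injective ?_, ?_⟩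
    · rw [map_pow, RingEquiv.apply_symm_apply, ← Units.val_pow_eq_pow_val, h1, map_one, Units.val_one]
    · rw [← Units.val_mul, h2, coe_sc_mul, RingEquiv.apply_symm_apply, Units.val_mul]
  have hxy : ∃ x ∈ N, ∃ y ∈ N, (x : Matrix (Fin 3) (Fin 3) F) * y =
      M.φ w • ((y : Matrix (Fin 3) (Fin 3) F) * x) := by
    obtain ⟨x, hx, hxZ⟩ := SetLike.not_le_iff_exists.1 (not_le_scalars (irr_of_spanA_eq_top hN.span))
    obtain ⟨y, hy, hne⟩ := exists_not_comm hN.span hxZ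
    obtain ⟨u, h1, h2⟩ := hcomm x hx y hy
    rcases hcube u h1 with rfl | rfl | rfl
    · exact absurd (Units.ext (by simpa using h2)) hne
    · exact ⟨y, hy, x, hx, h2⟩
    · refine ⟨x, hx, y, hy, ?_⟩
      rw [h2, smul_smul, ← map_mul, show w * (w * w) = 1 by linear_combination (w - 1) * hw,
        map_one, one_smul]
  obtain ⟨x, hx, y, hy, hxy⟩ := hxy
  have c3 : ∀ z ∈ N, (z : Matrix (Fin 3) (Fin 3) F) * z * z = 1 := fun z hz => by
    rw [← Units.val_mul, ← Units.val_mul, ← pow_three', hexp z hz, Units.val_one]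
  have tr : (x : Matrix (Fin 3) (Fin 3) F).trace = 0 ∧
      ((x : Matrix (Fin 3) (Fin 3) F) * x).trace = 0 := by
    rcases hN.trace_cases hx with ⟨h1, h2⟩ | ⟨c, rfl⟩
    · refine ⟨h1, ?_⟩
      rw [← h2, ← Units.val_mul, eq_inv_of_mul_eq_one_left ((pow_three' x).symm.trans (hexp x hx))]
    · exfalso
      rw [← Units.val_mul, ← Units.val_mul, (commute_sc c y).eq] at hxy
      have h1 := congrArg (· * (((y * sc (Fin 3) F c)⁻¹ : GL (Fin 3) F) :
        Matrix (Fin 3) (Fin 3) F)) hxy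
      simp only [smul_mul_assoc, Units.mul_inv] at h1
      have h2 := congrFun (congrFun h1 0) 0
      exact hw1 (M.φ.injective (by simpa using h2.symm))
  obtain ⟨P, hP, rx, ry⟩ := M.exists_heis hw hw1 h3 (M.mem_GU.1 (hU hx)) (M.mem_GU.1 (hU hy))
    (c3 x hx) (c3 y hy) tr.1 tr.2 hxy
  have hPu := M.isUnit_of_unitary hP
  have key : ∀ h ∈ H, ∀ a, M.Rel P a (h : Matrix (Fin 3) (Fin 3) F) → ∀ i j, ∃ (c : R) (i' j' : Fin 3),
      c ^ 3 = 1 ∧ aR w i j * a = c • (a * aR w i' j') := by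
    intro h hh a ra i j
    have hr : h⁻¹ * (x ^ i.val * y ^ j.val) * h ∈ N :=
      (Subgroup.mem_normalizer_iff''.1 (hH hh) _).1 (N.mul_mem (N.pow_mem hx _) (N.pow_mem hy _))
    set r := h⁻¹ * (x ^ i.val * y ^ j.val) * h with hrd
    obtain ⟨m, rm⟩ := M.exists_rel hPu (r : Matrix (Fin 3) (Fin 3) F)
    obtain ⟨u, u3, hu⟩ := hcomm x hx r hr
    obtain ⟨u', u3', hu'⟩ := hcomm y hy r hr
    obtain ⟨i', j', a1, a2, a3⟩ := htab u u' u3 u3'
    have m1 : m * xR w = u • (xR w * m) := (rm.mul rx).inj hPu (hu ▸ (rx.mul rm).smul u)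
    have m2 : m * yR R = u' • (yR R * m) := (rm.mul ry).inj hPu (hu' ▸ (ry.mul rm).smul u')
    have m3 : m * m * m = 1 := ((rm.mul rm).mul rm).inj hPu (by rw [c3 r hr]; exact Mdl.Rel.one)
    set A := aR w i' j'
    have cm : ∀ (Z : Matrix (Fin 3) (Fin 3) R) (u : R), u ^ 3 = 1 → m * Z = u • (Z * m) →
        A * Z = u • (Z * A) → m * (A * A) * Z = Z * (m * (A * A)) := fun Z u u3 h1 h2 => by
      rw [mul_assoc, mul_assoc, h2, mul_smul_comm, ← mul_assoc A, h2, smul_mul_assoc, mul_smul_comm,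
        mul_smul_comm, ← mul_assoc, ← mul_assoc, h1, smul_mul_assoc, smul_mul_assoc, smul_smul,
        smul_smul, ← pow_three', u3, one_smul, mul_assoc, mul_assoc]
    obtain ⟨c, hc⟩ := scalar_of_comm_xy hw hw1 (cm _ _ u3 m1 a1) (cm _ _ u3' m2 a2)
    have hm : m = c • A := by
      rw [← one_mul A, ← smul_mul_assoc, ← hc, mul_assoc, ← pow_three', a3, mul_one]
    refine ⟨c, i', j', ?_, ?_⟩
    · rw [hm, ← pow_three', smul_pow, a3] at m3
      simpa using congrFun (congrFun m3 0) 0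
    · rw [← mul_smul_comm, ← hm]
      refine (((rx.pow _).mul (ry.pow _)).mul ra).inj hPu ?_
      convert ra.mul rm using 1
      rw [hrd]; simp [mul_assoc]
  refine M.not_max_vec hP (fun v => hf v v = 1 ∧ ∀ i j, dA (aR w i j) v ^ 2 ∈ T) hs sd ht td Xs Xv Xt
    fun h hh a ha hd e => ⟨fun v hv => ⟨by rw [hf_mulVec ha, hv.1], fun i j => ?_⟩, ?_⟩
  · obtain ⟨c, i', j', h1, h2⟩ := key h hh a e i j
    rw [dA_mulVec hd h1 h2]
    exact hv.2 _ _
  · rintro rfl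
    obtain ⟨c, i', j', -, h2⟩ := key h hh a e 1 0
    exact hs' _ _ _ h2

end H10.Asch
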