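import Cfsg.Agent.Lib.Asch.CertF

/-!
The frame stabiliser of `SU_3(5)` lies in `3.A₇`.
-/

set_option autoImplicit false

namespace H10.Asch

open Matrix Cfsg Cfsg.Geo

variable {F : Type*} [Field F]

open G25 in
set_option maxHeartbeats 4000000 in
set_option maxRecDepth 100000 in
theorem frame_three_five' [Fintype F] (hF : Fintype.card F = 5 ^ 2) {D : Fin 3 → Submodule F (Fin 3 → F)}
    (hD : IsNondegenerateMDecomposition (hermForm 3 F 5) 1 D) {H : Subgroup (GL (Fin 3) F)}
    (hH : H ≤ decompositionStabilizer D) :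
    ¬ IsMaximalIn (GU 3 F 5 ⊓ specialLinear (Fin 3) F) H := by
  obtain ⟨M⟩ := exists_mdl_five hF
  refine M.frame_not_max hD (A := G25) (fun x => x * x)
    (fun a b c => a = 1 ∧ (b, c) ∈ [(e 1, e 0), (e 1, e 2), (e 2, e 2), (e 3, e 0), (e 3, e 4)])
    (s := !![e 3, e 4, e 4; e 4, e 3, e 4; e 4, e 4, e 3])
    (t := !![e 1, e 0, e 0; e 0, e 6, e 22; e 0, e 23, e 21])
    (by decide +kernel) (by decide +kernel) (by decide +kernel) (by decide +kernel) ?_
    (v₀ := ![e 0, e 0, e 1]) (by decide +kernel) (by decide +kernel) ⟨1, 2, 0, by decide +kernel⟩ hH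
  simp only [Fin.forall_fin_succ_pi, Fin.forall_fin_zero_pi]
  change ∀ a : Fin 25, _
  intro a
  fin_cases a <;> decide +kernel

end H10.Asch
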