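import Cfsg.Agent.Lib.Asch.CertF

/-!
The frame stabiliser of `SU_6(2)` lies in `3.U₄(3).2`.
-/

set_option autoImplicit false

namespace H10.Asch

open Matrix Cfsg Cfsg.Geo

variable {F : Type*} [Field F]

open G4 in
set_option maxRecDepth 100000 in
theorem frame_six_two [Fintype F] (hF : Fintype.card F = 2 ^ 2) {D : Fin 6 → Submodule F (Fin 6 → F)}
    (hD : IsNondegenerateMDecomposition (hermForm 6 F 2) 1 D) {H : Subgroup (GL (Fin 6) F)}
    (hH : H ≤ decompositionStabilizer D) :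
    ¬ IsMaximalIn (GU 6 F 2 ⊓ specialLinear (Fin 6) F) H := by
  obtain ⟨M⟩ := exists_mdl_two hF
  refine M.frame_not_max hD (A := ℕ) (fun x => if x = 0 then 0 else 1)
    (fun _ b c => b = 2 ∨ c = 1)
    (s := !![e 0, e 1, e 1, e 1, e 1, e 1; e 1, e 0, e 1, e 1, e 1, e 1; e 1, e 1, e 0, e 1, e 1, e 1; e 1, e 1, e 1, e 0, e 1, e 1; e 1, e 1, e 1, e 1, e 0, e 1; e 1, e 1, e 1, e 1, e 1, e 0])
    (t := !![e 1, e 0, e 0, e 0, e 0, e 0; e 0, e 1, e 0, e 0, e 0, e 0; e 0, e 0, e 0, e 2, e 2, e 2; e 0, e 0, e 3, e 0, e 1, e 1; e 0, e 0, e 3, e 1, e 0, e 1; e 0, e 0, e 3, e 1, e 1, e 0])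
    (by decide +kernel) (by decide +kernel) (by decide +kernel) (by decide +kernel) ?_
    (v₀ := ![e 0, e 0, e 0, e 0, e 1, e 2]) (by decide +kernel) (by decide +kernel) ⟨1, 2, 0, by decide +kernel⟩ hH
  simp only [Fin.forall_fin_succ_pi, Fin.forall_fin_zero_pi]
  decide +kernel

end H10.Asch
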