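import Cfsg.Agent.Lib.Asch.CertK

/-!
The group `7:3` of `SU_3(3)` lies in `L₂(7)`.
-/

set_option autoImplicit false

namespace H10.Asch

open Matrix Cfsg Cfsg.Geo

open G9 in
set_option maxRecDepth 100000 in
set_option synthInstance.maxSize 4000 in
theorem field_three_three {F : Type*} [Field F] [Fintype F] (hF : Fintype.card F = 3 ^ 2)
    {K : Subalgebra F (Matrix (Fin 3) (Fin 3) F)} (hK : IsFieldSubalgebra 3 K)
    (hadj : IsAdjointClosedFor (hermForm 3 F 3) K) {H : Subgroup (GL (Fin 3) F)}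
    (hH : H ≤ subalgebraNormalizer K) :
    ¬ IsMaximalIn (GU 3 F 3 ⊓ specialLinear (Fin 3) F) H := by
  obtain ⟨M⟩ := exists_mdl_three hF
  haveI : H11.U.IsSq F 3 := ⟨hF⟩
  refine M.field_not_max (l := 7) (c := 2) (by norm_num) hK hadj (by rw [hF]; norm_num)
    (b := e 4) (by decide +kernel) (by decide +kernel) fix_seven
    (by rw [H11.U.card_GU]; decide +kernel)
    (C := !![e 3, e 8, e 1; e 8, e 6, e 3; e 1, e 3, e 7])
    (by decide +kernel) (by decide +kernel) (by decide +kernel) (fun _ => True) (fun _ _ _ _ => trivial)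
    (fun A v => hf (A *ᵥ v) v ∈ [e 1, e 4, e 5, e 7, e 8])
    (fun _ _ _ v ha _ h hv => by rwa [hf_semiconj ha h])
    (s := !![e 0, e 0, e 2; e 0, e 2, e 0; e 2, e 0, e 0])
    (t := !![e 1, e 0, e 0; e 0, e 4, e 8; e 0, e 7, e 7])
    (by decide +kernel) (by decide +kernel) (by decide +kernel) (by decide +kernel) ?_
    (v₀ := ![e 0, e 4, e 8]) (by decide +kernel) (by decide +kernel) (by decide +kernel) hH
  simp only [Fin.forall_fin_succ_pi, Fin.forall_fin_zero_pi]
  decide +kernel

end H10.Asch
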