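import Cfsg.Agent.Lib.Asch.CertK

/-!
The group `3 × 7:3` of `SU_3(5)` lies in `3.A₇`.
-/

set_option autoImplicit false

namespace H10.Asch

open Matrix Cfsg Cfsg.Geo

open G25 in
set_option maxHeartbeats 4000000 in
set_option maxRecDepth 100000 in
set_option synthInstance.maxSize 4000 in
theorem field_three_five' {F : Type*} [Field F] [Fintype F] (hF : Fintype.card F = 5 ^ 2)
    {K : Subalgebra F (Matrix (Fin 3) (Fin 3) F)} (hK : IsFieldSubalgebra 3 K)
    (hadj : IsAdjointClosedFor (hermForm 3 F 5) K) {H : Subgroup (GL (Fin 3) F)}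
    (hH : H ≤ subalgebraNormalizer K) :
    ¬ IsMaximalIn (GU 3 F 5 ⊓ specialLinear (Fin 3) F) H := by
  obtain ⟨M⟩ := exists_mdl_five hF
  haveI : H11.U.IsSq F 5 := ⟨hF⟩
  refine M.field_not_max (l := 7) (c := 2) (by norm_num) hK hadj (by rw [hF]; norm_num)
    (b := e 7) (by decide +kernel) (by decide +kernel) fix_seven
    (by rw [H11.U.card_GU]; decide +kernel)
    (C := !![e 16, e 4, e 23; e 22, e 11, e 13; e 13, e 8, e 5])
    (by decide +kernel) (by decide +kernel) (by decide +kernel) (fun j => j = 1 ∨ j = 2 ∨ j = 4) (by decide +kernel)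
    (fun A v => hf v v = 1 ∧ (hf (A *ᵥ v) v, dA A v ^ 2) ∈ [(e 0, e 4), (e 2, e 6), (e 2, e 21), (e 3, e 3), (e 4, e 4), (e 7, e 1), (e 8, e 4), (e 9, e 1), (e 12, e 3), (e 16, e 6), (e 16, e 21), (e 19, e 6), (e 19, e 21), (e 21, e 1), (e 22, e 3)])
    (fun _ _ _ v ha hd h hv => by
      rwa [hf_semiconj ha h, hf_mulVec ha, dA_mulVec hd (one_pow 3) (by rw [h, one_smul])])
    (s := !![e 1, e 2, e 4; e 2, e 1, e 4; e 4, e 4, e 2])
    (t := !![e 1, e 0, e 0; e 0, e 6, e 22; e 0, e 23, e 21])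
    (by decide +kernel) (by decide +kernel) (by decide +kernel) (by decide +kernel) ?_
    (v₀ := ![e 0, e 2, e 10]) (by decide +kernel) (by decide +kernel) (by decide +kernel) hH
  simp only [Fin.forall_fin_succ_pi, Fin.forall_fin_zero_pi]
  change ∀ a : Fin 25, _
  intro a
  fin_cases a <;> decide +kernel

end H10.Asch
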