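import Cfsg.Agent.Lib.Asch.CertO

/-!
The orthogonal subgroups of `SU_3(3)` and `SU_3(5)` are not maximal.
-/

set_option autoImplicit false

namespace H10.Asch

open Matrix Cfsg Cfsg.Geo

open G9 in
set_option maxHeartbeats 4000000 in
set_option maxRecDepth 100000 in
set_option synthInstance.maxSize 4000 in
theorem orth_three_three {F : Type*} [Field F] [Fintype F] (hF : Fintype.card F = 3 ^ 2)
    {F₀ : Subfield F} (h0 : Fintype.card F = Nat.card F₀ ^ 2) {P : GL (Fin 3) F}
    (hP : IsFormRationalStructure (hermForm 3 F 3) F₀ 1 P) {H : Subgroup (GL (Fin 3) F)}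
    (hH : H ≤ subfieldSubgroup F₀ P) :
    ¬ IsMaximalIn (GU 3 F 3 ⊓ specialLinear (Fin 3) F) H := by
  obtain ⟨M⟩ := exists_mdl_three hF
  refine M.orth_not_max hF h0 hP (by decide +kernel) (by decide +kernel) [] [e 1, e 2]
    (s := !![e 3, e 0, e 0; e 0, e 6, e 0; e 0, e 0, e 1])
    (t := !![e 1, e 0, e 0; e 0, e 4, e 8; e 0, e 7, e 7])
    (by decide +kernel) (by decide +kernel) (by decide +kernel) (by decide +kernel) ?_
    (v₀ := ![e 0, e 0, e 1]) (by decide +kernel) (by decide +kernel) (by decide +kernel) hH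
  simp only [Fin.forall_fin_succ_pi, Fin.forall_fin_zero_pi]
  decide +kernel

open G25 in
set_option maxHeartbeats 4000000 in
set_option maxRecDepth 100000 in
set_option synthInstance.maxSize 4000 in
theorem orth_three_five {F : Type*} [Field F] [Fintype F] (hF : Fintype.card F = 5 ^ 2)
    {F₀ : Subfield F} (h0 : Fintype.card F = Nat.card F₀ ^ 2) {P : GL (Fin 3) F}
    (hP : IsFormRationalStructure (hermForm 3 F 5) F₀ 1 P) {H : Subgroup (GL (Fin 3) F)}
    (hH : H ≤ subfieldSubgroup F₀ P) :
    ¬ IsMaximalIn (GU 3 F 5 ⊓ specialLinear (Fin 3) F) H := by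
  obtain ⟨M⟩ := exists_mdl_five hF
  refine M.orth_not_max hF h0 hP (by decide +kernel) (by decide +kernel) [e 0, e 2, e 4] [e 1]
    (s := !![e 0, e 0, e 17; e 0, e 4, e 0; e 12, e 0, e 0])
    (t := !![e 1, e 0, e 0; e 0, e 6, e 22; e 0, e 23, e 21])
    (by decide +kernel) (by decide +kernel) (by decide +kernel) (by decide +kernel) ?_
    (v₀ := ![e 0, e 0, e 1]) (by decide +kernel) (by decide +kernel) (by decide +kernel) hH
  simp only [Fin.forall_fin_succ_pi, Fin.forall_fin_zero_pi]
  change ∀ a : Fin 25, _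
  intro a
  fin_cases a <;> decide +kernel

end H10.Asch
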