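import Cfsg.Agent.Lib.Asch.CertR

/-!
The normaliser `3^(1+2) : Q₈` in `SU_3(5)` is not maximal.
-/

set_option autoImplicit false

namespace H10.Asch

open Matrix Cfsg Cfsg.Geo

open G25 in
set_option maxHeartbeats 4000000 in
set_option maxRecDepth 100000 in
set_option synthInstance.maxSize 4000 in
theorem heis_three_five {F : Type*} [Field F] [Fintype F] (hF : Fintype.card F = 5 ^ 2)
    {N : Subgroup (GL (Fin 3) F)} (hN : IsEA 3 N) (hU : N ≤ GU 3 F 5)
    (hS : IsSymplecticTypeGroup 3 N) {H : Subgroup (GL (Fin 3) F)}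
    (hH : H ≤ subgroupNormalizer N) :
    ¬ IsMaximalIn (GU 3 F 5 ⊓ specialLinear (Fin 3) F) H := by
  obtain ⟨M⟩ := exists_mdl_five hF
  refine M.heis_not_max (w := e 12) (by decide +kernel) (by decide +kernel) (by decide +kernel)
    (by decide +kernel) (by decide +kernel) hN hU (fun x hx => by
      have := Monoid.pow_exponent_eq_one (⟨x, hx⟩ : N)
      rw [hS.exponent_eq] at this
      exact congrArg Subtype.val this) [e 0, e 1, e 2]
    (s := !![e 1, e 2, e 4; e 2, e 1, e 4; e 4, e 4, e 2])
    (t := !![e 1, e 0, e 0; e 0, e 6, e 22; e 0, e 23, e 21])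
    (by decide +kernel) (by decide +kernel) (by decide +kernel) (by decide +kernel) ?_
    (v₀ := ![e 0, e 5, e 16]) (by decide +kernel) (by decide +kernel) (by decide +kernel) hH
  simp only [Fin.forall_fin_succ_pi, Fin.forall_fin_zero_pi]
  change ∀ a : Fin 25, _
  intro a
  fin_cases a <;> decide +kernel

end H10.Asch
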